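import Cfsg.Agent.H41.SpDA
import Cfsg.Agent.H25.S4Defs

/-!
# Root sets of `F⁵` with a degenerate pair
-/

set_option autoImplicit false

universe u

namespace Cfsg.Agent.H41.Sp

open H25.S4 Matrix

variable {F : Type*} [Field F] {R : Set (V5 F)} {b u u' : V5 F}

theorem tri_full (h2 : (2 : F) ≠ 0) (T : F → F → F → Prop) (hN : ∀ {x y z}, T x y z → x * x + 2 * (y * z) = 1)
    (hR : ∀ {x y z x' y' z'} κ, T x y z → T x' y' z' → κ = 2 * (x * x' + y * z' + z * y') →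
      T (x' - κ * x) (y' - κ * y) (z' - κ * z)) (h0 : ∀ l, T 1 l 0) {x y z : F} (hw : T x y z) (hz : z ≠ 0)
    {X Y Z : F} (hZ : Z ≠ 0) (h : X * X + 2 * (Y * Z) = 1) : T X Y Z := by
  have a : ∀ {x y z X Y}, T x y z → z ≠ 0 → X * X + 2 * (Y * z) = 1 → T X Y z := fun {x y z X Y} h1 h3 h4 => by
    have h5 := hR (x - X) (h0 (-(x + X) / (2 * z))) h1 (by field_simp; ring)
    have h6 := hN h5
    rw [mul_one, sub_sub_cancel, mul_zero, sub_zero] at h5 h6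
    rwa [mul_right_cancel₀ h3 (mul_left_cancel₀ h2 (add_left_cancel (h4.trans h6.symm)))]
  have := hR (-Z / z) (a (X := 0) (Y := 1 / (2 * z)) hw hz (by field_simp; simp)) (h0 (-Z / (2 * z * z))) (by field_simp; ring)
  rw [show 0 - -Z / z * z = Z by field_simp; ring] at this
  exact a this hZ h

/-- A unit vector and a hyperbolic pair orthogonal to it. -/
structure Hy (b u u' : V5 F) : Prop where
  bb : b ⬝ᵥ b = 1
  bu : b ⬝ᵥ u = 0
  uu : u ⬝ᵥ u = 0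
  bv : b ⬝ᵥ u' = 0
  uv : u ⬝ᵥ u' = 1
  vv : u' ⬝ᵥ u' = 0

theorem exists_hy (h2 : (2 : F) ≠ 0) (bb : b ⬝ᵥ b = 1) (bu : b ⬝ᵥ u = 0) (uu : u ⬝ᵥ u = 0) {w : V5 F} (ww : w ⬝ᵥ w = 1)
    (hw : w ⬝ᵥ u ≠ 0) : ∃ u', ∃ κ : F, Hy b u u' ∧ w = (w ⬝ᵥ b) • b + κ • u + (w ⬝ᵥ u) • u' := by
  refine ⟨(w ⬝ᵥ u)⁻¹ • (w - (w ⬝ᵥ b) • b - ((1 - (w ⬝ᵥ b) ^ 2) / (2 * w ⬝ᵥ u)) • u), (1 - (w ⬝ᵥ b) ^ 2) / (2 * w ⬝ᵥ u),
    ⟨bb, bu, uu, ?_, ?_, ?_⟩, by rw [smul_inv_smul₀ hw]; abel⟩ <;>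
  simp only [dotProduct_smul, smul_dotProduct, dotProduct_sub, sub_dotProduct, smul_eq_mul, bb, bu, uu, ww,
    dotProduct_comm b w, dotProduct_comm u w, dotProduct_comm u b] <;> field_simp <;> ring

theorem Hy.dot (H : Hy b u u') (x y z x' y' z' : F) :
    (x • b + y • u + z • u') ⬝ᵥ (x' • b + y' • u + z' • u') = x * x' + y * z' + z * y' := by
  simp only [dotProduct_smul, smul_dotProduct, dotProduct_add, add_dotProduct, smul_eq_mul, H.bb, H.bu, H.uu, H.bv, H.uv, H.vv,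
    dotProduct_comm u' b, dotProduct_comm u' u, dotProduct_comm u b]
  ring

theorem Hy.norm (H : Hy b u u') (h : RS R) {x y z : F} (h1 : x • b + y • u + z • u' ∈ R) : x * x + 2 * (y * z) = 1 := by
  linear_combination h.norm _ h1 - H.dot x y z x y z

theorem Hy.refl (H : Hy b u u') (h : RS R) {x y z x' y' z' : F} (κ : F) (h1 : x • b + y • u + z • u' ∈ R)
    (h2 : x' • b + y' • u + z' • u' ∈ R) (hκ : κ = 2 * (x * x' + y * z' + z * y')) :
    (x' - κ * x) • b + (y' - κ * y) • u + (z' - κ * z) • u' ∈ R := by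
  convert h.refl _ h1 _ h2 using 1
  rw [rf, H.dot, ← hκ]
  module

/-- A degenerate pair of roots. -/
structure Pr (R : Set (V5 F)) (b u : V5 F) : Prop where
  h0 : b ∈ R
  h1 : b + u ∈ R
  ne : u ≠ 0
  uu : u ⬝ᵥ u = 0
  bu : b ⬝ᵥ u = 0

theorem Pr.dk [Finite F] (h : RS R) (P : Pr R b u) {w : V5 F} (hw : w ∈ R) (wu : w ⬝ᵥ u ≠ 0) :
    ((∀ l : F, b + l • u ∈ R → l ^ 3 = l) ∧ (w ⬝ᵥ b) ^ 9 = w ⬝ᵥ b ∧ (w ⬝ᵥ (b + u)) ^ 9 = w ⬝ᵥ (b + u)) ∨
      ∃ k : Subfield F, (∀ l : F, b + l • u ∈ R ↔ l ∈ k) ∧ (w ⬝ᵥ b) ^ 2 ∈ k ∧ (w ⬝ᵥ (b + u)) ^ 2 ∈ k := by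
  obtain ⟨u', κ, H, e⟩ := exists_hy h.two (h.norm _ P.h0) P.bu P.uu (h.norm _ hw) wu
  simpa [dotProduct_add] using tri3 h.two (fun x y z => x • b + y • u + z • u' ∈ R) (H.norm h) (H.refl h)
    (by simpa using P.h0) (by simpa using P.h1) (e ▸ hw :) wu

theorem Pr.rf (h : RS R) (P : Pr R b u) {c : V5 F} (hc : c ∈ R) : Pr R (rf c b) (rf c u) :=
  ⟨h.refl _ hc _ P.h0, rf_add c b u ▸ h.refl _ hc _ P.h1, (rfE (h.norm c hc)).map_ne_zero_iff.2 P.ne,
    (rf_dot_rf (h.norm c hc) _ _).trans P.uu, (rf_dot_rf (h.norm c hc) _ _).trans P.bu⟩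

theorem span_top (h : RS R) (hu : u ≠ 0) : Submodule.span F {w | w ∈ R ∧ w ⬝ᵥ u ≠ 0} = ⊤ := by
  obtain ⟨j, hj⟩ := Function.ne_iff.1 hu
  refine h.conn _ (fun a ha => ?_) (h.frame j) (Submodule.subset_span ⟨h.frame j, by simpa using hj⟩)
  by_cases h1 : a ⬝ᵥ u = 0
  · refine or_iff_not_imp_left.2 fun h3 z hz => ?_
    induction hz using Submodule.span_induction with
    | mem x hx =>
      by_contra h4
      refine h3 ((Submodule.smul_mem_iff _ (mul_ne_zero h.two h4)).1 ?_)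
      simpa [rf] using Submodule.sub_mem _ (Submodule.subset_span hx) (Submodule.subset_span (R := F)
        (s := {w | w ∈ R ∧ w ⬝ᵥ u ≠ 0}) ⟨h.refl _ ha _ hx.1, by simpa [rf_dot, h1] using hx.2⟩)
    | zero => simp
    | add x y _ _ hx hy => simp [dotProduct_add, hx, hy]
    | smul c x _ hx => simp [hx]
  · exact .inl (Submodule.subset_span ⟨ha, h1⟩)

theorem claimA (h : RS R) (U : V5 F → V5 F → Prop) (hU : ∀ {b u}, U b u → Pr R b u)
    (hr : ∀ {b u c}, c ∈ R → U b u → U (rf c b) (rf c u)) (G : F → Prop)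
    (P1 : ∀ {b u w}, U b u → w ∈ R → w ⬝ᵥ u ≠ 0 → G (w ⬝ᵥ b) ∧ G (w ⬝ᵥ (b + u))) (G0 : G 0)
    (G1 : ∀ t x, G t → G (x * (1 - 8 * t ^ 2)) → G (x * (1 - 4 * t ^ 2)) → G x) (h0 : U b u) {a w : V5 F} (ha : a ∈ R)
    (hw : w ∈ R) : G (w ⬝ᵥ a) := by
  obtain ⟨u, hu⟩ : ∃ u, U a u := by
    obtain ⟨l, hl, rfl⟩ := h.homog b (hU h0).h0 a ha
    clear ha
    induction l with
    | nil => exact ⟨u, h0⟩
    | cons c l ih =>
      obtain ⟨u, hu⟩ := ih fun x hx => hl x (List.mem_cons_of_mem _ hx)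
      exact ⟨_, hr (hl c List.mem_cons_self) hu⟩
  have P := hU hu
  obtain ⟨e, he, ea, eu⟩ : ∃ e ∈ R, e ⬝ᵥ a = 0 ∧ e ⬝ᵥ u ≠ 0 := by
    obtain ⟨g, g1, g2, rfl⟩ := h.exists_iso (h.frame 0) ha
    obtain ⟨u, rfl⟩ := g.surjective u
    obtain ⟨j, hj⟩ := Function.ne_iff.1 (g.map_ne_zero_iff.1 P.ne)
    have h1 := P.bu
    rw [g1, single_dotProduct, one_mul] at h1
    have h2 : j ≠ 0 := by rintro rfl; exact hj h1
    exact ⟨_, (g2 _).2 (h.frame j), by simp [g1, h2], by simpa [g1] using hj⟩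
  by_cases h1 : w ⬝ᵥ u = 0
  swap
  · exact (P1 hu hw h1).1
  by_cases h2 : w ⬝ᵥ e = 0
  swap
  · have := (P1 (hr he hu) hw (by
      rw [dot_rf, h1, zero_sub, neg_ne_zero, dotProduct_comm]; exact mul_ne_zero (mul_ne_zero h.two h2) eu)).1
    rwa [dot_rf, ea, mul_zero, sub_zero] at this
  by_cases h3 : w ⬝ᵥ a = 0
  · exact h3 ▸ G0
  have h4 := (P1 hu he eu).2
  rw [dotProduct_add, ea, zero_add] at h4
  have aa := h.norm a ha
  have h5 := P1 (hr (h.refl _ P.h1 _ he) hu) hw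
  simp only [dot_rf, rf_dot, dotProduct_add, add_dotProduct, dotProduct_comm e w, dotProduct_comm a e, dotProduct_comm u e,
    dotProduct_comm a w, dotProduct_comm u w, dotProduct_comm u a, h1, h2, ea, aa, P.uu, P.bu] at h5
  obtain ⟨h6, h7⟩ := h5 (by
    convert mul_ne_zero (mul_ne_zero (four_ne h.two) (mul_ne_zero eu eu)) h3 using 1
    ring)
  exact G1 _ _ h4 (by convert h6 using 1; ring) (by convert h7 using 1; ring)

/-- Eichler transformations. -/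
def Ei (u y x : V5 F) : V5 F := x + (2 * (x ⬝ᵥ u)) • y - (2 * (x ⬝ᵥ y) + 2 * (y ⬝ᵥ y) * (x ⬝ᵥ u)) • u

theorem Ei_add (uu : u ⬝ᵥ u = 0) {y y' : V5 F} (h : y ⬝ᵥ u = 0) (h' : y' ⬝ᵥ u = 0) (x : V5 F) :
    Ei u y (Ei u y' x) = Ei u (y + y') x := by
  simp only [Ei, dotProduct_add, add_dotProduct, sub_dotProduct, smul_dotProduct, smul_eq_mul, uu, h, h',
    dotProduct_comm u y, dotProduct_comm y' y]
  module

theorem Ei_rf (uu : u ⬝ᵥ u = 0) {z : V5 F} (zz : z ⬝ᵥ z = 1) (zu : z ⬝ᵥ u = 0) (α β : F) (x : V5 F) :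
    rf (z + α • u) (rf (z + β • u) x) = Ei u ((β - α) • z) x := by
  simp only [Ei, rf, dotProduct_add, add_dotProduct, dotProduct_sub, smul_dotProduct, dotProduct_smul, smul_eq_mul, uu, zz, zu,
    dotProduct_comm u z, dotProduct_comm z x, dotProduct_comm u x]
  module

theorem add_all (h2 : (2 : F) ≠ 0) {l : F} (hl : l ^ 3 ≠ l) {P : F → Prop} (h1 : ∀ x y, P x → P y → P (x + y))
    (h3 : ∀ x, x + 1 ≠ 0 → x - 1 ≠ 0 → P x) (x : F) : P x := by
  have h4 : ∀ x, x ^ 2 ≠ 1 → P x := fun x hx => h3 x (fun e => hx (by linear_combination (x - 1) * e))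
    fun e => hx (by linear_combination (x + 1) * e)
  by_cases hx : x ^ 2 = 1
  · have h5 : ∀ l : F, l ^ 3 ≠ l → (1 - l) ^ 2 ≠ 1 → P x := fun l hl e => by
      simpa [sub_mul] using h1 _ _ (h4 (l * x) fun e => hl (by linear_combination l * e - l ^ 3 * hx))
        (h4 ((1 - l) * x) (by rwa [mul_pow, hx, mul_one]))
    by_cases e : (1 - l) ^ 2 = 1
    · refine h5 (-l) (fun e => hl (by linear_combination -e)) fun e' => hl ?_
      rw [(mul_eq_zero.1 (show 4 * l = 0 by linear_combination e' - e)).resolve_left (four_ne h2)]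
      simp
    · exact h5 l hl e
  · exact h4 x hx

theorem full (h : RS R) (hb : ∀ l : F, b + l • u ∈ R) (ne : u ≠ 0) (uu : u ⬝ᵥ u = 0) (bu : b ⬝ᵥ u = 0) {l : F} (hl : l ^ 3 ≠ l)
    (y : V5 F) (hy : y ⬝ᵥ y = 1) : y ∈ R := by
  have h2 := h.two
  have bb : b ⬝ᵥ b = 1 := h.norm _ (by simpa using hb 0)
  let Y : Submodule F (V5 F) :=
    { carrier := {y | y ⬝ᵥ u = 0 ∧ ∀ l : F, ∀ x ∈ R, Ei u (l • y) x ∈ R}
      add_mem' := fun {y y'} h h' => ⟨by simp [h.1, h'.1], fun l x hx => by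
        rw [smul_add, ← Ei_add uu (by simp [h.1]) (by simp [h'.1])]
        exact h.2 _ _ (h'.2 _ _ hx)⟩
      zero_mem' := ⟨by simp, fun l x hx => by simpa [Ei] using hx⟩
      smul_mem' := fun c y h => ⟨by simp [h.1], fun l x hx => smul_smul l c y ▸ h.2 _ _ hx⟩ }
  have uY : u ∈ Y := ⟨uu, fun l x hx => by
    convert hx using 1
    simp only [Ei, smul_dotProduct, dotProduct_smul, smul_eq_mul, uu]
    module⟩
  have bY : b ∈ Y := ⟨bu, fun l x hx => by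
    simpa only [Ei_rf uu bb bu, sub_zero] using h.refl _ (hb 0) _ (h.refl _ (hb l) _ hx)⟩
  have hy0 : ∀ w ∈ R, w ⬝ᵥ u ≠ 0 → ∃ u', ∃ κ : F, Hy b u u' ∧ w = (w ⬝ᵥ b) • b + κ • u + (w ⬝ᵥ u) • u' ∧
      ∀ X Y Z : F, Z ≠ 0 → X * X + 2 * (Y * Z) = 1 → X • b + Y • u + Z • u' ∈ R := fun w hw wu => by
    obtain ⟨u', κ, H, e⟩ := exists_hy h2 bb bu uu (h.norm _ hw) wu
    exact ⟨u', κ, H, e, fun X Y Z => tri_full h2 (fun x y z => x • b + y • u + z • u' ∈ R) (H.norm h) (H.refl h)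
      (by simpa using hb) (e ▸ hw :) wu⟩
  obtain ⟨j, hj⟩ := Function.ne_iff.1 ne
  obtain ⟨u0, -, H0, -, r0⟩ := hy0 _ (h.frame j) (by simpa using hj)
  have key : ∀ x, x - (x ⬝ᵥ u) • u0 ∈ Y := fun x => by
    induction (span_top h ne).ge (Submodule.mem_top (x := x)) using Submodule.span_induction with
    | zero => simp
    | add x y _ _ hx hy => convert Y.add_mem hx hy using 1; rw [add_dotProduct]; module
    | smul c x _ hx => convert Y.smul_mem c hx using 1; rw [smul_dotProduct, smul_eq_mul]; module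
    | mem w hw =>
      obtain ⟨u1, κ, H1, e, r1⟩ := hy0 w hw.1 hw.2
      suffices u1 - u0 ∈ Y by
        convert Y.add_mem (Y.add_mem (Y.smul_mem (w ⬝ᵥ b) bY) (Y.smul_mem κ uY)) (Y.smul_mem (w ⬝ᵥ u) this) using 1
        rw [smul_sub, ← add_sub_assoc, ← e]
      obtain ⟨X, Z, hZ, hX⟩ : ∃ X Z : F, Z ≠ 0 ∧ X * X - 2 * (u0 ⬝ᵥ u1) * (Z * Z) = 1 := by
        generalize u0 ⬝ᵥ u1 = δ
        obtain ⟨s, s0, s1⟩ : ∃ s : F, s ≠ 0 ∧ 1 - 2 * δ * (s * s) ≠ 0 := by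
          by_contra! c
          exact hl (by linear_combination l ^ 3 * c 1 one_ne_zero - l * c l (by rintro rfl; simp at hl))
        refine ⟨(1 + 2 * δ * (s * s)) / (1 - 2 * δ * (s * s)), 2 * s / (1 - 2 * δ * (s * s)),
          div_ne_zero (mul_ne_zero h2 s0) s1, ?_⟩
        rw [div_mul_div_comm, div_mul_div_comm, ← mul_div_assoc, ← sub_div, div_eq_one_iff_eq (mul_ne_zero s1 s1)]
        ring
      have zu : (X • b + Z • (u1 - u0)) ⬝ᵥ u = 0 := by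
        simp [bu, dotProduct_comm u0 u, dotProduct_comm u1 u, H0.uv, H1.uv]
      have zz : (X • b + Z • (u1 - u0)) ⬝ᵥ (X • b + Z • (u1 - u0)) = 1 := by
        simp only [dotProduct_smul, smul_dotProduct, dotProduct_add, add_dotProduct, dotProduct_sub, sub_dotProduct, smul_eq_mul,
          bb, H0.bv, H1.bv, H0.vv, H1.vv, dotProduct_comm u0 b, dotProduct_comm u1 b, dotProduct_comm u1 u0]
        linear_combination hX
      have r : ∀ s : F, s ≠ 0 → X • b + Z • (u1 - u0) + (-(u0 ⬝ᵥ u1) * Z - Z * s ^ 2 / 2) • u ∈ R := fun s hs => by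
        convert h.refl _ (r0 0 (s / 2) s⁻¹ (inv_ne_zero hs) (by field_simp; simp)) _
          (r1 X (-(u0 ⬝ᵥ u1) * Z) Z hZ (by linear_combination hX)) using 1
        simp only [rf, dotProduct_smul, smul_dotProduct, dotProduct_add, add_dotProduct, smul_eq_mul, bb, bu, uu,
          H0.bv, H1.bv, H0.uv, H1.uv, dotProduct_comm u0 b, dotProduct_comm u b, dotProduct_comm u0 u]
        match_scalars <;> field_simp <;> ring
      have zY : X • b + Z • (u1 - u0) ∈ Y := ⟨zu, fun μ => by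
        have := add_all h2 hl (P := fun t => ∀ x ∈ R, Ei u ((2 * Z * t) • (X • b + Z • (u1 - u0))) x ∈ R)
          (fun s t hs ht x hx => by
            rw [mul_add, add_smul, ← Ei_add uu (by rw [smul_dotProduct, zu, smul_zero]) (by rw [smul_dotProduct, zu, smul_zero])]
            exact hs _ (ht _ hx))
          (fun t t1 t2 x hx => by
            convert Ei_rf uu zz zu _ _ x ▸ h.refl _ (r _ t1) _ (h.refl _ (r _ t2) _ hx) using 3
            field_simp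
            ring) (μ / (2 * Z))
        rwa [mul_div_cancel₀ _ (mul_ne_zero h2 hZ)] at this⟩
      exact (Y.smul_mem_iff hZ).1 (by simpa using Y.sub_mem zY (Y.smul_mem X bY))
  have fin : ∀ y, y ⬝ᵥ y = 1 → y ⬝ᵥ u ≠ 0 → y ∈ R := fun y hy m => by
    obtain ⟨w, hw, wu⟩ : ∃ w ∈ R, w ⬝ᵥ u = y ⬝ᵥ u := ⟨_, r0 0 (1 / (2 * y ⬝ᵥ u)) _ m (by field_simp; simp), by
      simp [uu, dotProduct_comm u0 u, H0.uv]⟩
    have h1 := (key (y - w)).2 (1 / (2 * y ⬝ᵥ u)) w hw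
    rw [sub_dotProduct, wu, sub_self, zero_smul, sub_zero, Ei, wu, smul_smul, mul_one_div_cancel (mul_ne_zero h2 m), one_smul,
      add_sub_cancel, sub_eq_add_neg, ← neg_smul] at h1
    obtain ⟨c, hc⟩ : ∃ c : F, y + c • u ∈ R := ⟨_, h1⟩
    have h3 := h.norm _ hc
    simp only [dotProduct_smul, smul_dotProduct, dotProduct_add, add_dotProduct, smul_eq_mul, uu, hy, dotProduct_comm u y] at h3
    simpa [(mul_eq_zero.1 (show c * (2 * y ⬝ᵥ u) = 0 by linear_combination h3)).resolve_right (mul_ne_zero h2 m)] using hc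
  by_cases m : y ⬝ᵥ u = 0
  · obtain ⟨w, hw, wy⟩ : ∃ w, (w ∈ R ∧ w ⬝ᵥ u ≠ 0) ∧ w ⬝ᵥ y ≠ 0 := by
      by_contra! c
      have : ∀ x, x ⬝ᵥ y = 0 := fun x => by
        induction (span_top h ne).ge (Submodule.mem_top (x := x)) using Submodule.span_induction with
        | zero => simp
        | add x y _ _ hx hy => simp [hx, hy]
        | smul c x _ hx => simp [hx]
        | mem w hw => exact c w hw
      exact one_ne_zero (hy.symm.trans (this y))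
    exact (h.rf_mem_iff hw.1).1 (fin _ ((rf_dot_rf (h.norm _ hw.1) _ _).trans hy) (by
      rw [rf_dot, m, zero_sub, neg_ne_zero]; exact mul_ne_zero (mul_ne_zero h2 wy) hw.2))
  · exact fin y hy m

/-- The vectors of weight four. -/
def vec (i : Fin 5) : Fin 5 → ZMod 3 := fun j => if j = i then 0 else 1

theorem three (h : RS R) (h3 : (3 : F) = 0) (hx : ∀ x : F, x ^ 3 = x) (y : V5 F) (hy : y ⬝ᵥ y = 1) : y ∈ R := by
  have : CharP F 3 := (CharP.charP_iff_prime_eq_zero Nat.prime_three).2 (by exact_mod_cast h3)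
  let φ := ZMod.castHom (dvd_refl 3) F
  have s : ∀ y : V5 F, ∃ y' : Fin 5 → ZMod 3, φ ∘ y' = y := Function.Surjective.comp_left fun x => by
    rcases mul_eq_zero.1 (show x * ((x - 1) * (x + 1)) = 0 by linear_combination hx x) with e | e
    · exact ⟨0, by simp [e]⟩
    · rcases mul_eq_zero.1 e with e | e
      · exact ⟨1, by rw [map_one]; linear_combination -e⟩
      · exact ⟨-1, by rw [map_neg, map_one]; linear_combination -e⟩
  have n : ∀ y : Fin 5 → ZMod 3, (φ ∘ y) ⬝ᵥ (φ ∘ y) = 1 → y ⬝ᵥ y = 1 := fun y e =>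
    φ.injective ((φ.map_dotProduct y y).trans (e.trans φ.map_one.symm))
  have f : ∀ i : Fin 5, φ ∘ Pi.single i 1 = Pi.single i 1 := fun i => funext fun j => by simp [Pi.single_apply, apply_ite φ]
  have sg : ∀ {a y : Fin 5 → ZMod 3}, φ ∘ a ∈ R → (∀ j, y j ^ 2 = a j ^ 2) → φ ∘ y ∈ R := fun {a y} ha e => by
    convert h.signs ha (fun j => if y j = a j then 1 else -1) (fun j => by split_ifs <;> simp) using 1
    ext j
    split_ifs with c
    · simp [c]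
    · simp [(sq_eq_sq_iff_eq_or_eq_neg.1 (e j)).resolve_left c]
  have a : ∀ i, ∃ j, j ≠ i ∧ φ ∘ vec j ∈ R := fun i => by
    obtain ⟨b, b1, b2, b3, b4, -⟩ := h.bs _ (h.frame i)
    obtain ⟨b, rfl⟩ := s b
    obtain ⟨j, j1, j2⟩ := (by decide +kernel : ∀ (i : Fin 5) (b : Fin 5 → ZMod 3), b ⬝ᵥ b = 1 ∧ b i ≠ 0 ∧ b ≠ Pi.single i 1 ∧
      b ≠ -Pi.single i 1 → ∃ j, j ≠ i ∧ ∀ l, vec j l ^ 2 = b l ^ 2) i b ⟨n _ (h.norm _ b1),
      fun e => b2 (by simp [e]), fun e => b3 (e ▸ f i), fun e => b4 (by rw [e, ← f]; ext; simp)⟩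
    exact ⟨j, j1, sg b1 j2⟩
  obtain ⟨i, -, hi⟩ := a 0
  obtain ⟨j, ij, hj⟩ := a i
  have c : ∀ l, φ ∘ vec l ∈ R := fun l => by
    rcases (by decide +kernel : ∀ i j l : Fin 5, j ≠ i → l = i ∨ l = j ∨ ∃ w : Fin 5 → ZMod 3, (∀ k, w k ^ 2 = vec j k ^ 2) ∧
      ∀ k, vec l k ^ 2 = (vec i - (2 * (w ⬝ᵥ vec i)) • w) k ^ 2) i j l ij with rfl | rfl | ⟨w, w1, w2⟩
    exacts [hi, hj, sg (by
      convert h.refl _ (sg hj w1) _ hi using 1
      ext
      simp [rf, ← φ.map_dotProduct, map_ofNat]) w2]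
  obtain ⟨y, rfl⟩ := s y
  obtain ⟨i, e | e⟩ := (by decide +kernel : ∀ y : Fin 5 → ZMod 3, y ⬝ᵥ y = 1 → ∃ i : Fin 5,
    (∀ j, y j ^ 2 = (Pi.single i 1 : Fin 5 → ZMod 3) j ^ 2) ∨ ∀ j, y j ^ 2 = vec i j ^ 2) y (n y hy)
  exacts [sg (f i ▸ h.frame i :) e, sg (c i) e]

theorem dg (gold : GoldStmt.{u}) : DGStmt.{u} := by
  rintro F _ _ R h ⟨b0, a1, b', b1, ab, ne⟩ NS
  have h2 := h.two
  have P0 : Pr R b0 (b' - b0) := ⟨a1, by simpa, sub_ne_zero.2 ne.symm, by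
    simp [h.norm _ a1, h.norm _ b1, ab, dotProduct_comm b' b0], by simp [h.norm _ a1, ab]⟩
  have gen : ∀ k : Subfield F, ∀ {t x : F} (n : ℕ), t ^ 2 ∈ k → (x * (1 - 8 * t ^ 2)) ^ n ∈ k → (x * (1 - 4 * t ^ 2)) ^ n ∈ k →
      x ^ n ∈ k := fun k t x n h1 h3 h4 => by
    have a : ∀ m : ℕ, (x * (1 - m * t ^ 2)) ^ n ∈ k → 1 - m * t ^ 2 ≠ 0 → x ^ n ∈ k := fun m b c => by
      simpa [mul_pow, c] using div_mem b (pow_mem (sub_mem (one_mem k) (mul_mem (natCast_mem k m) h1)) n)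
    by_cases e : 1 - 4 * t ^ 2 = 0
    · exact a 8 (by exact_mod_cast h3) fun e' => one_ne_zero (α := F) (by push_cast at e'; linear_combination 2 * e - e')
    · exact a 4 (by exact_mod_cast h4) (by exact_mod_cast e)
  have rfl' : ∀ {b u c : V5 F} (l : F), c ∈ R → (rf c b + l • rf c u ∈ R ↔ b + l • u ∈ R) := fun l hc => by
    rw [← rf_smul, ← rf_add, h.rf_mem_iff hc]
  by_cases hc : ∃ b u, Pr R b u ∧ ∃ l : F, b + l • u ∈ R ∧ l ^ 3 ≠ l
  · obtain ⟨b, u, P, l, l1, l2⟩ := hc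
    obtain ⟨j, hj⟩ := Function.ne_iff.1 P.ne
    obtain ⟨k, hk, -⟩ := (P.dk h (h.frame j) (by simpa using hj)).resolve_left fun c => l2 (c.1 l l1)
    obtain rfl := NS k fun a ha w hw => claimA h (fun b u => Pr R b u ∧ ∀ l : F, b + l • u ∈ R ↔ l ∈ k) And.left
      (fun hc H => ⟨H.1.rf h hc, fun l => (rfl' l hc).trans (H.2 l)⟩) (· ^ 2 ∈ k)
      (fun H hw wu => by
        obtain ⟨k', h1, h3⟩ := (H.1.dk h hw wu).resolve_left fun c => l2 (c.1 l ((H.2 l).2 ((hk l).1 l1)))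
        rwa [show k = k' from Subfield.ext fun l => (H.2 l).symm.trans (h1 l)])
      (by simp) (fun t x => gen k 2) ⟨P, hk⟩ hw ha
    exact full h (fun l => (hk l).2 trivial) P.ne P.uu P.bu l2
  · push Not at hc
    have h3 : (3 : F) = 0 := by
      have := hc _ _ P0 2 (by
        convert h.neg_mem (h.refl _ b1 _ a1) using 1
        rw [rf, dotProduct_comm, ab]
        module)
      exact (mul_eq_zero.1 (show 2 * (3 : F) = 0 by linear_combination this)).resolve_left h2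
    have := Fact.mk Nat.prime_three
    have : CharP F 3 := (CharP.charP_iff_prime_eq_zero Nat.prime_three).2 (by exact_mod_cast h3)
    have h4 : ∀ β : F, (β ^ 2) ^ 3 = β ^ 2 → β ^ 9 = β := fun β e => by
      rcases mul_eq_zero.1 (show β ^ 2 * (β ^ 4 - 1) = 0 by linear_combination e) with e | e
      · simp [(pow_eq_zero_iff two_ne_zero).1 e]
      · linear_combination (β ^ 5 + β) * e
    have h5 : ∀ a ∈ R, ∀ w ∈ R, (a ⬝ᵥ w) ^ 9 = a ⬝ᵥ w := fun a ha w hw => claimA h (Pr R) id (fun hc H => H.rf h hc)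
      (fun x => x ^ 9 = x) (fun H hw wu => (H.dk h hw wu).elim And.right fun ⟨k, h1, h3, h5⟩ =>
        ⟨h4 _ (hc _ _ H _ ((h1 _).2 h3)), h4 _ (hc _ _ H _ ((h1 _).2 h5))⟩) (by simp)
      (fun t x h1 h3 h5 => by
        have := gen ((iterateFrobenius F 3 2).eqLocusField (RingHom.id F)) (t := t) (x := x) 1 (pow_mem h1 2)
        rw [pow_one, pow_one, pow_one] at this
        exact this h3 h5) P0 hw ha
    refine three h h3 fun x => (NS ((frobenius F 3).eqLocusField (RingHom.id F)) fun a ha w hw => ?_).ge (Subfield.mem_top x)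
    by_cases e : (a ⬝ᵥ w) ^ 4 = -1
    · obtain ⟨a, v, c, c1, c2, c3, c4, c5, c6, c7⟩ := gold F R h h3 h5 ⟨a, ha, w, hw, e⟩
      exact absurd (hc a v ⟨c1, c5, c2, c3, c4⟩ c c6) c7
    · exact mul_left_cancel₀ (add_eq_zero_iff_eq_neg.not.2 e) (show ((a ⬝ᵥ w) ^ 4 + 1) * ((a ⬝ᵥ w) ^ 2) ^ 3 =
        ((a ⬝ᵥ w) ^ 4 + 1) * (a ⬝ᵥ w) ^ 2 by linear_combination (a ⬝ᵥ w) * h5 a ha w hw)

end Cfsg.Agent.H41.Sp
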