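import Mathlib
import Cfsg.Agent.H93.STDA

/-! Involution centraliser with Sylow 2-subgroup `⟨t⟩ × dihedral`: normal forms and fusion. -/

set_option autoImplicit false
set_option linter.unusedSectionVars false

namespace Cfsg.Agent.H41.Dih

open Subgroup Cfsg.Agent.H8
open scoped Pointwise

variable {G : Type*} [Group G] [Finite G]

/-- a multiplicatively closed subset of a finite group -/
def sub (P : G → Prop) (h1 : P 1) (hm : ∀ x y, P x → P y → P (x * y)) : Subgroup G where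
  carrier := {x | P x}
  one_mem' := h1
  mul_mem' := fun {x y} hx hy => hm x y hx hy
  inv_mem' := fun {x} hx => by
    have hp : ∀ n : ℕ, P (x ^ n) := by
      intro n
      induction n with
      | zero => simpa using h1
      | succ n ih => rw [pow_succ]; exact hm _ _ ih hx
    have : x⁻¹ = x ^ (orderOf x - 1) := by
      have h := orderOf_pos x
      rw [eq_comm, ← mul_eq_one_iff_eq_inv, ← pow_succ, Nat.sub_add_cancel h, pow_orderOf_eq_one]
    show P _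
    rw [this]; exact hp _

theorem mem_sub {P : G → Prop} {h1 : P 1} {hm : ∀ x y, P x → P y → P (x * y)} {x : G} :
    x ∈ sub P h1 hm ↔ P x := Iff.rfl

theorem syl_not_le {S H K : Subgroup G} (hS : IsSylowIn 2 S H) (hK : K.relIndex H = 2) :
    ∃ s ∈ S, s ∉ K := by
  by_contra hc
  push Not at hc
  apply hS.not_dvd
  have h1 : S ≤ K ⊓ H := le_inf hc hS.le
  have := relIndex_mul_relIndex S (K ⊓ H) H h1 inf_le_right
  rw [inf_relIndex_right, hK] at this
  exact ⟨_, by rw [← this, mul_comm]⟩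

theorem two_of {H K : Subgroup G} (g : G) (hH : g ∈ H) (hK : g ∉ K)
    (hm : ∀ b ∈ H, b ∉ K → b * g ∈ K) : K.relIndex H = 2 := by
  rw [relIndex_eq_two_iff]
  refine ⟨g, hH, fun b hb => ?_⟩
  by_cases hbK : b ∈ K
  · exact Or.inr ⟨hbK, fun h => hK (by simpa using K.mul_mem (K.inv_mem hbK) h)⟩
  · exact Or.inl ⟨hm b hb hbK, hbK⟩

theorem pg_zpowers (w : G) (k : ℕ) (hw : w ^ 2 ^ k = 1) : IsPGroup 2 (zpowers w) := by
  rintro ⟨g, n, rfl⟩
  refine ⟨k, Subtype.ext ?_⟩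
  show (w ^ n) ^ 2 ^ k = 1
  rw [← zpow_natCast, ← zpow_mul, mul_comm, zpow_mul, zpow_natCast, hw, one_zpow]

/-- a set closed under right multiplication by `w` -/
theorem order_dvd_ncard (w : G) (X : Set G) (hX : ∀ x ∈ X, x * w ∈ X) : orderOf w ∣ X.ncard := by
  classical
  have hp : ∀ n : ℕ, ∀ x ∈ X, x * w ^ n ∈ X := by
    intro n
    induction n with
    | zero => simp
    | succ n ih => intro x hx; rw [pow_succ, ← mul_assoc]; exact hX _ (ih x hx)
  have : X = QuotientGroup.mk ⁻¹' ((QuotientGroup.mk : G → G ⧸ zpowers w) '' X) := by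
    ext x
    refine ⟨fun hx => ⟨x, hx, rfl⟩, ?_⟩
    rintro ⟨y, hy, hyx⟩
    rw [QuotientGroup.eq, mem_zpowers_iff_mem_range_orderOf, Finset.mem_image] at hyx
    obtain ⟨n, -, hn⟩ := hyx
    have := hp n y hy
    rw [hn] at this
    simpa using this
  rw [this, ← Nat.card_coe_set_eq, QuotientGroup.card_preimage_mk, Nat.card_zpowers]
  exact dvd_mul_right _ _

/-- conjugation -/
def cj (g x : G) : G := g * x * g⁻¹

theorem cj_mul_left (g h x : G) : cj (g * h) x = cj g (cj h x) := by simp [cj, mul_assoc]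
theorem cj_mul (g x y : G) : cj g (x * y) = cj g x * cj g y := by simp [cj, mul_assoc]
theorem cj_inv_cj (g x : G) : cj g⁻¹ (cj g x) = x := by simp [cj, mul_assoc]
theorem cj_cj_inv (g x : G) : cj g (cj g⁻¹ x) = x := by simp [cj, mul_assoc]
theorem cj_one (g : G) : cj g 1 = 1 := by simp [cj]
theorem one_cj (x : G) : cj 1 x = x := by simp [cj]
theorem cj_inj (g : G) {x y : G} (h : cj g x = cj g y) : x = y := by
  simpa [cj] using h
theorem cj_inv_eq {g x y : G} (h : cj g x = y) : cj g⁻¹ y = x := by rw [← h, cj_inv_cj]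
theorem cj_zpow (g x : G) (j : ℤ) : cj g (x ^ j) = cj g x ^ j := by simp [cj]
theorem cj_eq_iff {g x y : G} : cj g x = y ↔ g * x = y * g := by
  simp [cj, mul_inv_eq_iff_eq_mul]
theorem isConj_cj (g x : G) : IsConj x (cj g x) := isConj_iff.mpr ⟨g, rfl⟩
theorem isConj_cj_iff {t : G} (g x : G) : IsConj t (cj g x) ↔ IsConj t x :=
  ⟨fun h => h.trans (isConj_cj g x).symm, fun h => h.trans (isConj_cj g x)⟩
theorem cj_sq {x : G} (g : G) (h : x * x = 1) : cj g x * cj g x = 1 := by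
  rw [← cj_mul, h, cj_one]
theorem cj_comm {x y : G} (g : G) (h : x * y = y * x) : cj g x * cj g y = cj g y * cj g x := by
  rw [← cj_mul, h, cj_mul]
theorem cj_mem {H : Subgroup G} {g x : G} (hg : g ∈ H) (hx : x ∈ H) : cj g x ∈ H :=
  H.mul_mem (H.mul_mem hg hx) (H.inv_mem hg)
theorem mem_cen {t x : G} : x ∈ centralizer ({t} : Set G) ↔ cj x t = t := by
  rw [mem_centralizer_singleton_iff, cj_eq_iff]

theorem exists_cj_le {S Q H : Subgroup G} (hS : IsSylowIn 2 S H) (hQ : IsPGroup 2 Q)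
    (hQH : Q ≤ H) : ∃ k ∈ H, ∀ w ∈ Q, cj k w ∈ S := by
  obtain ⟨k, hk, hle⟩ := hS.exists_conj_le hQ hQH
  exact ⟨k, hk, fun w hw => hle (conj_mem_conj_smul.mpr hw)⟩

theorem cc (c : G) (i j : ℤ) : c ^ i * c ^ j = c ^ (i + j) := (zpow_add c i j).symm
theorem cc' (c : G) (i j : ℤ) (x : G) : c ^ i * (c ^ j * x) = c ^ (i + j) * x := by
  rw [← mul_assoc, cc]

/-- The hypotheses, with the fusion stated for all reflections. -/
structure Hy (t c a : G) (m : ℕ) : Prop where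
  tt : t * t = 1
  aa : a * a = 1
  oc : orderOf c = 2 ^ (m + 2)
  aca : a * c * a = c⁻¹
  tc : t * c = c * t
  ta : t * a = a * t
  tn : t ∉ closure ({c, a} : Set G)
  syl : IsSylowIn 2 (closure ({t, c, a} : Set G)) (centralizer ({t} : Set G))
  loc : ∀ j : ℤ, ∃ ρ, cj ρ t = t ∧ cj ρ (c ^ (2 * 2 ^ m : ℤ)) = a * c ^ j ∧
    cj ρ (a * c ^ j) = a * c ^ j * c ^ (2 * 2 ^ m : ℤ)
  no2 : ∀ M : Subgroup G, M.index = 2 → t ∈ M

theorem ca_of {c a : G} (aa : a * a = 1) (aca : a * c * a = c⁻¹) (j : ℤ) :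
    c ^ j * a = a * c ^ (-j) := by
  have hi : a⁻¹ = a := inv_eq_of_mul_eq_one_right aa
  have h1 : cj a c = c⁻¹ := by rw [cj, hi, aca]
  have h2 : cj a (c ^ (-j)) = c ^ j := by rw [cj_zpow, h1]; simp
  exact (cj_eq_iff.mp h2).symm

namespace Hy

variable {t c a : G} {m : ℕ} (h : Hy t c a m)
include h

theorem ca (j : ℤ) : c ^ j * a = a * c ^ (-j) := ca_of h.aa h.aca j
theorem ct (j : ℤ) : c ^ j * t = t * c ^ j :=
  ((show Commute t c from h.tc).zpow_right j).eq.symm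

/-- rewriting rules for the normal form `t a c^j` -/
theorem nf : (∀ j : ℤ, c ^ j * a = a * c ^ (-j)) ∧
    (∀ (j : ℤ) x, c ^ j * (a * x) = a * (c ^ (-j) * x)) ∧
    (∀ j : ℤ, c ^ j * t = t * c ^ j) ∧ (∀ (j : ℤ) x, c ^ j * (t * x) = t * (c ^ j * x)) ∧
    a * t = t * a ∧ (∀ x, a * (t * x) = t * (a * x)) ∧ t * t = 1 ∧ (∀ x, t * (t * x) = x) ∧
    a * a = 1 ∧ (∀ x, a * (a * x) = x) ∧ (∀ i j : ℤ, c ^ i * c ^ j = c ^ (i + j)) ∧
    (∀ (i j : ℤ) x, c ^ i * (c ^ j * x) = c ^ (i + j) * x) ∧ t⁻¹ = t ∧ a⁻¹ = a ∧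
    (∀ j : ℤ, (c ^ j)⁻¹ = c ^ (-j)) := by
  refine ⟨h.ca, fun j x => ?_, h.ct, fun j x => ?_, h.ta.symm, fun x => ?_, h.tt, fun x => ?_,
    h.aa, fun x => ?_, cc c, cc' c, inv_eq_of_mul_eq_one_right h.tt,
    inv_eq_of_mul_eq_one_right h.aa, fun j => (zpow_neg c j).symm⟩
  · rw [← mul_assoc, h.ca, mul_assoc]
  · rw [← mul_assoc, h.ct, mul_assoc]
  · rw [← mul_assoc, ← h.ta, mul_assoc]
  · rw [← mul_assoc, h.tt, one_mul]
  · rw [← mul_assoc, h.aa, one_mul]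

theorem c_one (j : ℤ) : c ^ j = 1 ↔ (4 * 2 ^ m : ℤ) ∣ j := by
  rw [← orderOf_dvd_iff_zpow_eq_one, h.oc]
  push_cast
  rw [show (2 : ℤ) ^ (m + 2) = 4 * 2 ^ m by ring]

theorem c_eq (i j : ℤ) : c ^ i = c ^ j ↔ (4 * 2 ^ m : ℤ) ∣ i - j := by
  rw [← h.c_one, zpow_sub, mul_inv_eq_one]

theorem c_of (i j k : ℤ) (e : i - j = 4 * 2 ^ m * k) : c ^ i = c ^ j :=
  (h.c_eq i j).mpr ⟨k, e⟩

theorem z_ne : c ^ (2 * 2 ^ m : ℤ) ≠ 1 := by
  rw [Ne, h.c_one]
  rintro ⟨k, hk⟩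
  have hq : (2 : ℤ) ^ m ≠ 0 := by positivity
  have : (2 : ℤ) ^ m * (2 - 4 * k) = 0 := by linear_combination hk
  have := (mul_eq_zero.mp this).resolve_left hq
  omega

theorem zz : c ^ (2 * 2 ^ m : ℤ) * c ^ (2 * 2 ^ m : ℤ) = 1 := by
  rw [cc, h.c_one]; exact ⟨1, by ring⟩

theorem zneg : c ^ (-(2 * 2 ^ m) : ℤ) = c ^ (2 * 2 ^ m : ℤ) := h.c_of _ _ (-1) (by ring)

theorem two_cases (j : ℤ) (hj : c ^ (j + j) = 1) : c ^ j = 1 ∨ c ^ j = c ^ (2 * 2 ^ m : ℤ) := by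
  obtain ⟨k, hk⟩ := (h.c_one _).mp hj
  have hj : j = 2 * 2 ^ m * k := by linarith
  rcases Int.even_or_odd' k with ⟨l, hl | hl⟩
  · left; rw [h.c_one]; exact ⟨l, by rw [hj, hl]; ring⟩
  · right; exact h.c_of _ _ l (by rw [hj, hl]; ring)

theorem memDd {x : G} : x ∈ closure ({c, a} : Set G) ↔ ∃ j : ℤ, x = c ^ j ∨ x = a * c ^ j := by
  have hc : c ∈ closure ({c, a} : Set G) := subset_closure (by simp)
  have ha : a ∈ closure ({c, a} : Set G) := subset_closure (by simp)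
  constructor
  · intro hx
    have : closure ({c, a} : Set G) ≤
        sub (fun x => ∃ j : ℤ, x = c ^ j ∨ x = a * c ^ j) ⟨0, by simp⟩ (by
          rintro x y ⟨i, rfl | rfl⟩ ⟨j, rfl | rfl⟩ <;> simp only [mul_assoc, h.nf] <;>
            first | exact ⟨_, Or.inl rfl⟩ | exact ⟨_, Or.inr rfl⟩) := by
      rw [closure_le]
      rintro x (rfl | rfl)
      · exact ⟨1, by simp⟩
      · exact ⟨0, by simp⟩
    exact this hx
  · rintro ⟨j, rfl | rfl⟩
    · exact zpow_mem hc j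
    · exact mul_mem ha (zpow_mem hc j)

theorem tR : t ∈ closure ({t, c, a} : Set G) := subset_closure (by simp)
theorem cR (j : ℤ) : c ^ j ∈ closure ({t, c, a} : Set G) := zpow_mem (subset_closure (by simp)) j
theorem aR : a ∈ closure ({t, c, a} : Set G) := subset_closure (by simp)

theorem memR {x : G} : x ∈ closure ({t, c, a} : Set G) ↔
    ∃ j : ℤ, x = c ^ j ∨ x = a * c ^ j ∨ x = t * c ^ j ∨ x = t * (a * c ^ j) := by
  constructor
  · intro hx
    have : closure ({t, c, a} : Set G) ≤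
        sub (fun x => ∃ j : ℤ, x = c ^ j ∨ x = a * c ^ j ∨ x = t * c ^ j ∨ x = t * (a * c ^ j))
          ⟨0, by simp⟩ (by
          rintro x y ⟨i, rfl | rfl | rfl | rfl⟩ ⟨j, rfl | rfl | rfl | rfl⟩ <;>
            simp only [mul_assoc, h.nf] <;>
            first | exact ⟨_, Or.inl rfl⟩ | exact ⟨_, Or.inr (Or.inl rfl)⟩ |
              exact ⟨_, Or.inr (Or.inr (Or.inl rfl))⟩ | exact ⟨_, Or.inr (Or.inr (Or.inr rfl))⟩) := by
      rw [closure_le]
      rintro x (rfl | rfl | rfl)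
      · exact ⟨0, by simp⟩
      · exact ⟨1, by simp⟩
      · exact ⟨0, by simp⟩
    exact this hx
  · rintro ⟨j, rfl | rfl | rfl | rfl⟩
    · exact h.cR j
    · exact mul_mem h.aR (h.cR j)
    · exact mul_mem h.tR (h.cR j)
    · exact mul_mem h.tR (mul_mem h.aR (h.cR j))

theorem memR' {x : G} (hx : x ∈ closure ({t, c, a} : Set G)) :
    ∃ d ∈ closure ({c, a} : Set G), x = d ∨ x = t * d := by
  obtain ⟨j, e | e | e | e⟩ := h.memR.mp hx
  · exact ⟨_, h.memDd.mpr ⟨j, Or.inl rfl⟩, Or.inl e⟩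
  · exact ⟨_, h.memDd.mpr ⟨j, Or.inr rfl⟩, Or.inl e⟩
  · exact ⟨_, h.memDd.mpr ⟨j, Or.inl rfl⟩, Or.inr e⟩
  · exact ⟨_, h.memDd.mpr ⟨j, Or.inr rfl⟩, Or.inr e⟩

theorem td {d : G} (hd : d ∈ closure ({c, a} : Set G)) : d * t = t * d := by
  obtain ⟨j, rfl | rfl⟩ := h.memDd.mp hd <;> simp only [mul_assoc, h.nf]

theorem t_ne (j : ℤ) : t ≠ c ^ j := fun e => h.tn (h.memDd.mpr ⟨j, Or.inl e⟩)

theorem t_ne_one : t ≠ 1 := by simpa using h.t_ne 0

theorem sqR {x : G} (hx : x ∈ closure ({t, c, a} : Set G)) : ∃ j : ℤ, x * x = c ^ (j + j) := by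
  obtain ⟨j, rfl | rfl | rfl | rfl⟩ := h.memR.mp hx <;> simp only [mul_assoc, h.nf]
  · exact ⟨j, rfl⟩
  · exact ⟨0, by simp⟩
  · exact ⟨j, rfl⟩
  · exact ⟨0, by simp⟩

theorem RC {x : G} (hx : x ∈ closure ({t, c, a} : Set G)) : cj x t = t := mem_cen.mp (h.syl.le hx)

theorem Rz {x : G} (hx : x ∈ closure ({t, c, a} : Set G)) :
    cj x (c ^ (2 * 2 ^ m : ℤ)) = c ^ (2 * 2 ^ m : ℤ) := by
  rw [cj_eq_iff]
  obtain ⟨j, rfl | rfl | rfl | rfl⟩ := h.memR.mp hx <;> simp only [mul_assoc, h.nf]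
  · rw [add_comm]
  · rw [h.c_of (j + 2 * 2 ^ m) (-(2 * 2 ^ m) + j) 1 (by ring)]
  · rw [add_comm]
  · rw [h.c_of (j + 2 * 2 ^ m) (-(2 * 2 ^ m) + j) 1 (by ring)]

theorem invDd {d : G} (hd : d ∈ closure ({c, a} : Set G)) (dd : d * d = 1) :
    d = 1 ∨ d = c ^ (2 * 2 ^ m : ℤ) ∨ ∃ j : ℤ, d = a * c ^ j := by
  obtain ⟨j, rfl | rfl⟩ := h.memDd.mp hd
  · rcases h.two_cases j (by rwa [← cc]) with e | e
    · exact Or.inl e
    · exact Or.inr (Or.inl e)
  · exact Or.inr (Or.inr ⟨j, rfl⟩)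

theorem refl_sq (i : ℤ) : a * c ^ i * (a * c ^ i) = 1 := by
  simp only [mul_assoc, h.nf, neg_add_cancel, zpow_zero]

theorem sqD {x : G} (hx : IsConj t x) : x * x = 1 := by
  obtain ⟨g, rfl⟩ := isConj_iff.mp hx
  exact cj_sq g h.tt

theorem conj_in {x : G} (hx : IsConj t x) {Q : Subgroup G} (hQ : IsPGroup 2 Q)
    (hc : ∀ w ∈ Q, w * x = x * w) :
    ∃ g, cj g x = t ∧ ∀ w ∈ Q, cj g w ∈ closure ({t, c, a} : Set G) := by
  obtain ⟨u, hu⟩ := isConj_iff.mp hx.symm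
  change cj u x = t at hu
  have hle : MulAut.conj u • Q ≤ centralizer ({t} : Set G) := by
    intro w hw
    rw [mem_conj_smul] at hw
    have := cj_comm u (hc _ hw)
    rw [hu] at this
    rw [mem_centralizer_singleton_iff]
    simpa [cj, mul_assoc] using this
  obtain ⟨k, hk, hkQ⟩ := exists_cj_le h.syl (isPGroup_conj_smul hQ u) hle
  refine ⟨k * u, by rw [cj_mul_left, hu, mem_cen.mp hk], fun w hw => ?_⟩
  rw [cj_mul_left]
  exact hkQ _ (conj_mem_conj_smul.mpr hw)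

/-- conjugates of `t` are not squares -/
theorem ns {x : G} (hx : IsConj t x) (w : G) : w * w ≠ x := by
  intro hw
  have h4 : w ^ 2 ^ 2 = 1 := by
    rw [show 2 ^ 2 = 2 + 2 from rfl, pow_add, pow_two, hw, h.sqD hx]
  obtain ⟨g, hg, hQ⟩ := h.conj_in hx (pg_zpowers w 2 h4) (by
    rintro _ ⟨n, rfl⟩
    have : Commute w x := by rw [← hw]; exact (Commute.refl w).mul_right (Commute.refl w)
    exact (this.zpow_left n).eq)
  obtain ⟨j, hj⟩ := h.sqR (hQ w (mem_zpowers w))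
  rw [← cj_mul, hw, hg] at hj
  exact h.t_ne _ hj

theorem z_not : ¬ IsConj t (c ^ (2 * 2 ^ m : ℤ)) := fun hz =>
  h.ns hz (c ^ (2 ^ m : ℤ)) (by rw [cc, two_mul])

theorem refl_not (j : ℤ) : ¬ IsConj t (a * c ^ j) := by
  obtain ⟨ρ, -, h1, -⟩ := h.loc j
  rw [← h1, isConj_cj_iff]
  exact h.z_not

theorem one_not : ¬ IsConj t 1 := fun e => h.t_ne_one (isConj_one_left.mp e)

theorem not_of_Dd {d : G} (hd : d ∈ closure ({c, a} : Set G)) : ¬ IsConj t d := by
  intro hD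
  rcases h.invDd hd (h.sqD hD) with rfl | rfl | ⟨j, rfl⟩
  · exact h.one_not hD
  · exact h.z_not hD
  · exact h.refl_not j hD

theorem t_refl (j : ℤ) : IsConj (t * c ^ (2 * 2 ^ m : ℤ)) (t * (a * c ^ j)) := by
  obtain ⟨ρ, h0, h1, -⟩ := h.loc j
  have := isConj_cj ρ (t * c ^ (2 * 2 ^ m : ℤ))
  rwa [cj_mul, h0, h1] at this

theorem td_sq {d : G} (hd : d ∈ closure ({c, a} : Set G)) : t * d * (t * d) = d * d := by
  rw [mul_assoc, ← mul_assoc d, h.td hd, mul_assoc, ← mul_assoc, ← mul_assoc, h.tt, one_mul]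

/-- the transfer count -/
theorem gt {H K : Subgroup G} (hK : K.relIndex H = 2) (k : ℕ)
    (hH : Nat.card H = 2 ^ k * Nat.card (closure ({t, c, a} : Set G))) :
    2 ^ (k + 1) ∣ {x : G | IsConj t x ∧ x ∈ H ∧ x ∉ K}.ncard := by
  have h1 : 2 * Nat.card H ∣ {x : G | IsConj t x ∧ x ∈ H ∧ x ∉ K}.ncard *
      Nat.card (centralizer ({t} : Set G)) := by
    by_contra hc
    obtain ⟨M, hM, hM2⟩ := H93.GT.gt_two hK h.tt hc
    exact hM2 (h.no2 M hM)
  rw [card_eq_card_mul_relIndex h.syl.le, hH, ← mul_assoc, mul_comm (Nat.card _) (relIndex _ _),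
    ← mul_assoc] at h1
  have h2 := Nat.dvd_of_mul_dvd_mul_right Nat.card_pos h1
  rw [← pow_succ'] at h2
  exact Nat.Coprime.dvd_of_dvd_mul_right
    (Nat.Coprime.pow_left _ ((Nat.Prime.coprime_iff_not_dvd Nat.prime_two).mpr h.syl.not_dvd)) h2

theorem tz_conj : IsConj t (t * c ^ (2 * 2 ^ m : ℤ)) := by
  by_contra hn
  have hK : (closure ({c, a} : Set G)).relIndex (closure ({t, c, a} : Set G)) = 2 := by
    refine two_of t h.tR h.tn fun b hb hbn => ?_
    obtain ⟨d, hd, rfl | rfl⟩ := h.memR' hb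
    · exact absurd hd hbn
    · rwa [mul_assoc, h.td hd, ← mul_assoc, h.tt, one_mul]
  have := h.gt hK 0 (by simp)
  have e : {x : G | IsConj t x ∧ x ∈ closure ({t, c, a} : Set G) ∧
      x ∉ closure ({c, a} : Set G)} = {t} := by
    ext x
    simp only [Set.mem_ofPred_eq, Set.mem_singleton_iff]
    refine ⟨fun ⟨hD, hx, hxn⟩ => ?_, fun e => by rw [e]; exact ⟨IsConj.refl _, h.tR, h.tn⟩⟩
    obtain ⟨d, hd, rfl | rfl⟩ := h.memR' hx
    · exact absurd hd hxn
    · rcases h.invDd hd (by rw [← h.td_sq hd]; exact h.sqD hD) with rfl | rfl | ⟨j, rfl⟩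
      · simp
      · exact absurd hD hn
      · exact absurd (hD.trans (h.t_refl j).symm) hn
  rw [e, Set.ncard_singleton] at this
  omega

theorem td_conj {d : G} (hd : d ∈ closure ({c, a} : Set G)) (dd : d * d = 1) :
    IsConj t (t * d) := by
  rcases h.invDd hd dd with rfl | rfl | ⟨j, rfl⟩
  · rw [mul_one]
  · exact h.tz_conj
  · exact h.tz_conj.trans (h.t_refl j)

theorem Dd_of_not {r : G} (hr : r ∈ closure ({t, c, a} : Set G)) (rr : r * r = 1)
    (hn : ¬ IsConj t r) : r ∈ closure ({c, a} : Set G) := by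
  obtain ⟨d, hd, rfl | rfl⟩ := h.memR' hr
  · exact hd
  · exact absurd (h.td_conj hd (by rwa [h.td_sq hd] at rr)) hn

theorem pair {x r : G} (hx : IsConj t x) (rr : r * r = 1) (hc : r * x = x * r)
    (hn : ¬ IsConj t r) : IsConj t (x * r) := by
  obtain ⟨g, hg, hQ⟩ := h.conj_in hx (pg_zpowers r 1 (by rw [pow_one, pow_two, rr])) (by
    rintro _ ⟨n, rfl⟩
    exact ((show Commute r x from hc).zpow_left n).eq)
  have h1 := h.Dd_of_not (hQ r (mem_zpowers r)) (cj_sq g rr) (by rwa [isConj_cj_iff])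
  have h2 := h.td_conj h1 (cj_sq g rr)
  rwa [← hg, ← cj_mul, hg, isConj_cj_iff] at h2

theorem pair_iff {x r : G} (rr : r * r = 1) (hc : r * x = x * r) (hn : ¬ IsConj t r) :
    IsConj t (x * r) ↔ IsConj t x := by
  refine ⟨fun hx => ?_, fun hx => h.pair hx rr hc hn⟩
  have := h.pair hx rr (by rw [← mul_assoc, hc]) hn
  rwa [mul_assoc, rr, mul_one] at this

/-- the image of a reflection under an element fixing `z` is a reflection when it lies in `R` -/
theorem refl_of {g : G} (hz : cj g (c ^ (2 * 2 ^ m : ℤ)) = c ^ (2 * 2 ^ m : ℤ)) (i : ℤ)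
    (hR : cj g (a * c ^ i) ∈ closure ({t, c, a} : Set G)) :
    ∃ j : ℤ, cj g (a * c ^ i) = a * c ^ j := by
  have sq : a * c ^ i * (a * c ^ i) = 1 := h.refl_sq i
  have hne : ∀ j : ℤ, a * c ^ i ≠ c ^ j := by
    intro j e
    have e1 : a = c ^ (j - i) := by rw [zpow_sub, ← e]; simp
    have e2 := h.ca (2 ^ m)
    rw [e1, cc, cc, h.c_eq] at e2
    apply h.z_ne
    rw [h.c_one]
    convert e2 using 1
    ring
  have h1 := h.Dd_of_not hR (cj_sq g sq) (by rw [isConj_cj_iff]; exact h.refl_not i)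
  rcases h.invDd h1 (cj_sq g sq) with e | e | e
  · exact absurd (cj_inj g (e.trans (by rw [zpow_zero, cj_one]))) (hne 0)
  · exact absurd (cj_inj g (e.trans hz.symm)) (hne _)
  · exact e

/-- replacing `a` by another reflection -/
theorem shift (k : ℤ) : Hy t c (a * c ^ k) m := by
  have e1 : closure ({c, a * c ^ k} : Set G) = closure ({c, a} : Set G) := by
    apply le_antisymm
    · rw [closure_le]
      rintro x (rfl | rfl)
      · exact h.memDd.mpr ⟨1, by simp⟩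
      · exact h.memDd.mpr ⟨k, by simp⟩
    · rw [closure_le]
      have hc : c ∈ closure ({c, a * c ^ k} : Set G) := subset_closure (by simp)
      have ha : a * c ^ k ∈ closure ({c, a * c ^ k} : Set G) := subset_closure (by simp)
      rintro x (rfl | rfl)
      · exact hc
      · simpa using mul_mem ha (zpow_mem hc (-k))
  have e2 : closure ({t, c, a * c ^ k} : Set G) = closure ({t, c, a} : Set G) := by
    rw [Set.insert_eq, Subgroup.closure_union, e1, ← Subgroup.closure_union, ← Set.insert_eq]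
  refine ⟨h.tt, h.refl_sq k, h.oc, ?_, h.tc, by simp only [mul_assoc, h.nf],
    e1 ▸ h.tn, e2 ▸ h.syl, fun j => ?_, h.no2⟩
  · have : a * c ^ k * c ^ (1 : ℤ) * (a * c ^ k) = c ^ (-1 : ℤ) := by
      simp only [mul_assoc, h.nf]; congr 1; ring
    simpa using this
  · rw [mul_assoc a, cc]
    exact h.loc (k + j)

theorem shift_R (k : ℤ) : closure ({t, c, a * c ^ k} : Set G) = closure ({t, c, a} : Set G) := by
  ext x
  rw [(h.shift k).memR, h.memR]
  simp only [mul_assoc, cc]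
  constructor
  · rintro ⟨j, e | e | e | e⟩
    · exact ⟨_, Or.inl e⟩
    · exact ⟨_, Or.inr (Or.inl e)⟩
    · exact ⟨_, Or.inr (Or.inr (Or.inl e))⟩
    · exact ⟨_, Or.inr (Or.inr (Or.inr e))⟩
  · rintro ⟨j, e | e | e | e⟩
    · exact ⟨_, Or.inl e⟩
    · exact ⟨j - k, Or.inr (Or.inl (by rw [e]; congr 2; ring))⟩
    · exact ⟨_, Or.inr (Or.inr (Or.inl e))⟩
    · exact ⟨j - k, Or.inr (Or.inr (Or.inr (by rw [e]; congr 3; ring)))⟩

end Hy

end Cfsg.Agent.H41.Dih
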