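import Cfsg.Agent.H41.JU3L

/-!
# The computations for the subgroup `U3(3)`
-/

set_option autoImplicit false
set_option maxRecDepth 1000000

namespace Cfsg.Agent.H41.JU3

open Subgroup Cfsg.Agent.H42 Cfsg.Agent.H46 Cfsg.Agent.H17.J4R Cfsg.Agent.H97.JM

universe u

variable {G : Type u} [Group G] {ρ : G →* GL112}

theorem ne_of (hρ : Function.Injective ρ) {a b : ℕ} {g h : G} (r : CG.R a (ρ g))
    (s : CG.R b (ρ h)) (c : Nat.beq a b = false) : g ≠ h := fun e => by
  rw [(eq_of_beq hρ r s).mpr e] at c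
  exact absurd c (by simp)

theorem R_inv' {a b : ℕ} {g k : G} (r : CG.R a (ρ g)) (s : CG.R b (ρ k))
    (hρ : Function.Injective ρ) (c : Nat.beq (mul a b) one = true) : CG.R b (ρ g⁻¹) := by
  have := (eq_of_beq hρ (R_mul' r s) R_one').mp c
  rwa [← eq_inv_of_mul_eq_one_right this]

theorem cu [Finite G] (hM : Model G)
    (h3 : ∀ a : G, orderOf a = 3 → Nat.card (centralizer ({a} : Set G)) = 2661120)
    (h7 : ∀ a : G, orderOf a = 7 →
      Nat.card (normalizer ((zpowers a : Subgroup G) : Set G)) = 2520) : CU G := by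
  obtain ⟨ρ, hρ, h0⟩ := model_spec hM
  have hA := wd_spec h0 A_chk
  have hT := wd_spec hA T_chk
  obtain ⟨x, -, rx⟩ := hT uT_0 (by simp [uT])
  obtain ⟨x1, -, rx1⟩ := hT uT_1 (by simp [uT])
  obtain ⟨x2, -, rx2⟩ := hT uT_2 (by simp [uT])
  set M : Subgroup G := closure {x, x1, x2} with hMd
  have xM : x ∈ M := subset_closure (by simp)
  have hTM : ∀ a ∈ uT, MemC ρ M a := by
    intro a ha
    simp only [uT, List.mem_cons, List.not_mem_nil, or_false] at ha
    rcases ha with rfl | rfl | rfl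
    · exact ⟨x, xM, rx⟩
    · exact ⟨x1, subset_closure (by simp), rx1⟩
    · exact ⟨x2, subset_closure (by simp), rx2⟩
  have hE := wd_spec hTM E_chk
  have hL := wd_spec hTM L_chk
  obtain ⟨y, yM, ry⟩ := hE uE_0 (by simp [uE])
  obtain ⟨v, vM, rv⟩ := hE uE_1 (by simp [uE])
  obtain ⟨w, wM, rw'⟩ := hE uE_2 (by simp [uE])
  obtain ⟨s, sM, rs⟩ := hE uE_3 (by simp [uE])
  obtain ⟨r, rM, rr⟩ := hE uE_4 (by simp [uE])
  obtain ⟨t, tM, rt⟩ := hE uE_5 (by simp [uE])
  obtain ⟨h, hM', rh⟩ := hE uE_6 (by simp [uE])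
  obtain ⟨y', -, ry'⟩ := hE uE_7 (by simp [uE])
  obtain ⟨v', -, rv'⟩ := hE uE_8 (by simp [uE])
  obtain ⟨m1, m1M, rm1⟩ := hE uE_9 (by simp [uE])
  obtain ⟨m2, m2M, rm2⟩ := hE uE_10 (by simp [uE])
  have q : ∀ {a b : ℕ} {g k : G}, CG.R a (ρ g) → CG.R b (ρ k) → Nat.beq a b = true → g = k :=
    fun r s c => (eq_of_beq hρ r s).mp c
  have rel : Rel x y v w :=
    { x1 := ne_of hρ rx R_one' n_x1
      x3 := q (R_pow' rx 3) R_one' e_x3
      y3 := q (R_pow' ry 3) R_one' e_y3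
      v3 := q (R_pow' rv 3) R_one' e_v3
      xy := q (R_mul' rx ry) (R_mul' ry rx) e_xy
      xv := q (R_mul' rx rv) (R_mul' rv rx) e_xv
      vy := q (R_mul' rv ry) (R_mul' (R_mul' ry rv) rx) e_vy
      wx := q (R_mul' rw' rx) (R_mul' (R_pow' rx 2) rw') e_wx
      wy := q (R_mul' rw' ry) (R_mul' rv rw') e_wy
      wv := q (R_mul' rw' rv) (R_mul' (R_mul' (R_mul' ry rv) (R_pow' rx 2)) rw') e_wv
      w8 := q (R_pow' rw' 8) R_one' e_w8
      w4 := ne_of hρ (R_pow' rw' 4) R_one' n_w4 }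
  have p3 : Fact (Nat.Prime 3) := ⟨by norm_num⟩
  have p7 : Fact (Nat.Prime 7) := ⟨by norm_num⟩
  have ox : orderOf x = 3 := orderOf_eq_prime rel.x3 rel.x1
  have oy : orderOf y = 3 := orderOf_eq_prime rel.y3 (by
    rintro rfl
    exact rel.x1 (by simpa using rel.vy))
  have os : orderOf s = 7 := orderOf_eq_prime (q (R_pow' rs 7) R_one' e_s7) (ne_of hρ rs R_one' n_s1)
  have or' : orderOf r = 3 :=
    orderOf_eq_prime (q (R_pow' rr 3) R_one' e_r3) (ne_of hρ rr R_one' n_r1)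
  have oh : orderOf h = 12 := ord_of (p1 := 3) (p2 := 2) (by norm_num)
    (q (R_pow' rh 12) R_one' e_h12) (ne_of hρ (R_pow' rh 4) R_one' n_h4)
    (ne_of hρ (R_pow' rh 6) R_one' n_h6) rfl rfl fun p pp pd => by
      have h1 : p ≤ 12 := Nat.le_of_dvd (by norm_num) pd
      interval_cases p <;> simp_all (config := { decide := true })
  have ryi := R_inv' ry ry' hρ e_yi
  have rvi := R_inv' rv rv' hρ e_vi
  have xR : x ∈ RR x y v := subset_closure (by simp)
  have yR : y ∈ RR x y v := subset_closure (by simp)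
  have vR : v ∈ RR x y v := subset_closure (by simp)
  have RM : RR x y v ≤ M := by
    rw [RR, closure_le]
    rintro _ (rfl | rfl | rfl)
    exacts [xM, yM, vM]
  have RB : RR x y v ≤ BB x y v w := closure_mono (by
    rintro _ (rfl | rfl | rfl) <;> simp)
  have BM : BB x y v w ≤ M := by
    rw [BB, closure_le]
    rintro _ (rfl | rfl | rfl | rfl)
    exacts [xM, yM, vM, wM]
  -- the prime 7
  set F : Subgroup G := closure {s, r} with hFd
  have sF : s ∈ F := subset_closure (by simp)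
  have rF : r ∈ F := subset_closure (by simp)
  have FM : F ≤ M := by
    rw [hFd, closure_le]
    rintro _ (rfl | rfl)
    exacts [sM, rM]
  have FN : F ≤ normalizer ((zpowers s : Subgroup G) : Set G) := by
    rw [hFd, closure_le]
    rintro _ (rfl | rfl)
    · exact le_normalizer (mem_zpowers _)
    · refine H33.J4O.mem_norm_zp ?_
      rw [q (R_mul' rr rs) (R_mul' (R_pow' rs 2) rr) e_rs, mul_inv_cancel_right]
      exact pow_mem (mem_zpowers s) _
  obtain ⟨zS, hzS⟩ := ex_vp l_vCS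
  have fS : ∀ z ∈ F, ρ z • zS = zS := fix_clo (by
    rintro _ (rfl | rfl)
    exacts [(fix_of rs hzS).mp e_fs, (fix_of rr hzS).mp e_fr])
  obtain ⟨s1, s2⟩ := pVC G ρ _ M F zS _ _ _ (pINC _ _ tcS_inc)
    (pKC G ρ hρ _ M KS uL vCS zS _ _ (nm_spec hρ rs (wd_spec hA KS_chk) KS_n) hL hzS
      (by decide) (by decide) tcS tcS_chk) FN FM fS
  rw [tcS_len, h7 s os] at s1 s2
  have cF : Nat.card F = 21 := by
    have d1 : 7 ∣ Nat.card F := os ▸ orderOf_dvd_natCard F sF
    have d2 : 3 ∣ Nat.card F := or' ▸ orderOf_dvd_natCard F rF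
    have d3 : 0 < Nat.card F := Nat.card_pos
    omega
  -- the centralizer of `x`
  obtain ⟨zX, hzX⟩ := ex_vp l_vCX
  obtain ⟨oX, hoX⟩ := ex_vp l_vOX
  have hCX := wd_spec hA CX_chk
  obtain ⟨hIX, hX⟩ := inv_spec hρ rx hCX IX_chk
  have hKX := cm_spec hρ rx rt (wd_spec (A := CX ++ IX)
    (fun a ha => (List.mem_append.mp ha).elim (hCX a) (hIX a)) KX_chk) KX_c
  have stX := step (ρ := ρ) (centralizer ({x} : Set G)) M ⊤ (zpowers h) (RR x y v) t oX zX _ _ _
    (nodup_of teX_inc toX_inc disX) (pINC _ _ tcX_inc)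
    (pKO G ρ hρ (RR x y v) ⊤ [uE_0, uE_1] [uE_7, uE_8] [] uE_5 vOX t oX [false] [false]
      (fun j => match j with
        | 0 => ⟨y, yR, ry, ryi⟩
        | 1 => ⟨v, vR, rv, rvi⟩
        | _ + 2 => ⟨1, one_mem _, R_one', by rw [inv_one]; exact R_one'⟩)
      (fun a ha => absurd ha List.not_mem_nil) rt hoX (by decide) (by decide) teX teX_chk)
    (pKO G ρ hρ _ M CX IX uL uE_5 vOX t oX _ _ hX hL rt hoX (by decide) (by decide) toX toX_chk)
    (pKC G ρ hρ _ M KX uL vCX zX _ _ hKX hL hzX (by decide) (by decide) tcX tcX_chk)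
    (by
      rw [RR, closure_le]
      rintro _ (rfl | rfl | rfl)
      exacts [H33.J4O.mcs.mpr rfl, H33.J4O.mcs.mpr rel.xy.symm, H33.J4O.mcs.mpr rel.xv.symm])
    RM tM
    (zpowers_le.mpr ⟨H33.J4O.mcs.mpr (q (R_mul' rh rx) (R_mul' rx rh) e_hx),
      H33.J4O.mcs.mpr (q (R_mul' rh rt) (R_mul' rt rh) e_ht)⟩)
    (zpowers_le.mpr hM')
    (by
      rw [zpowers_eq_closure]
      exact fix_clo (by rintro _ rfl; exact (fix_of rh hzX).mp e_fh))
    (by rw [List.length_append, teX_len]; omega)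
    (by rw [List.length_append, teX_len, toX_len, tcX_len, Nat.card_zpowers, oh, h3 x ox])
  -- the centralizer of `y`
  obtain ⟨zY, hzY⟩ := ex_vp l_vCY
  obtain ⟨oY, hoY⟩ := ex_vp l_vOY
  have hCY := wd_spec hA CY_chk
  obtain ⟨hIY, hY⟩ := inv_spec hρ ry hCY IY_chk
  have hKY := cm_spec hρ ry rt (wd_spec (A := CY ++ IY)
    (fun a ha => (List.mem_append.mp ha).elim (hCY a) (hIY a)) KY_chk) KY_c
  have stY := step (ρ := ρ) (centralizer ({y} : Set G)) M ⊤ (zpowers x) (zpowers y) t oY zY _ _ _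
    (nodup_of teY_inc toY_inc disY) (pINC _ _ tcY_inc)
    (pKO G ρ hρ (zpowers y) ⊤ [uE_0] [uE_7] [] uE_5 vOY t oY [false] [false]
      (fun j => match j with
        | 0 => ⟨y, mem_zpowers y, ry, ryi⟩
        | _ + 1 => ⟨1, one_mem _, R_one', by rw [inv_one]; exact R_one'⟩)
      (fun a ha => absurd ha List.not_mem_nil) rt hoY (by decide) (by decide) teY teY_chk)
    (pKO G ρ hρ _ M CY IY uL uE_5 vOY t oY _ _ hY hL rt hoY (by decide) (by decide) toY toY_chk)
    (pKC G ρ hρ _ M KY uL vCY zY _ _ hKY hL hzY (by decide) (by decide) tcY tcY_chk)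
    (zpowers_le.mpr (H33.J4O.mcs.mpr rfl)) (zpowers_le.mpr yM) tM
    (zpowers_le.mpr ⟨H33.J4O.mcs.mpr rel.xy,
      H33.J4O.mcs.mpr (q (R_mul' rx rt) (R_mul' rt rx) e_xt)⟩)
    (zpowers_le.mpr xM)
    (by
      rw [zpowers_eq_closure]
      exact fix_clo (by rintro _ rfl; exact (fix_of rx hzY).mp e_fx))
    (by rw [List.length_append, teY_len]; omega)
    (by rw [List.length_append, teY_len, toY_len, tcY_len, Nat.card_zpowers, ox, h3 y oy])
  refine ⟨M, F, x, y, v, w, s, rel, fun e => ?_, BM, FM, os, sF, FN, cF, fun N hN hx => ?_,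
    fun H hH => (stX H hH).trans (sup_le RB (zpowers_le.mpr ?_)),
    fun H hH => (stY H hH).trans (sup_le (zpowers_le.mpr yR) (zpowers_le.mpr xR)),
    fun H hH c hc => ?_⟩
  · obtain ⟨z, hz⟩ := ex_vp l_vM
    obtain ⟨g, -, rg⟩ := h0 mX (by simp)
    have f : ∀ k ∈ M, ρ k • z = z := fix_clo (by
      rintro _ (rfl | rfl | rfl)
      exacts [(fix_of rx hz).mp e_f0, (fix_of rx1 hz).mp e_f1, (fix_of rx2 hz).mp e_f2])
    have := (fix_of rg hz).mpr (f g (e ▸ mem_top g))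
    rw [n_mv] at this
    exact absurd this (by simp)
  · have k : ∀ {m z : G}, m ∈ M → m * x = z * m → z ∈ N := fun {m z} hm e => by
      have := (mem_normalizer_iff.mp (hN hm) x).mp hx
      rwa [e, mul_inv_cancel_right] at this
    rw [hMd, closure_le]
    rintro _ (rfl | rfl | rfl)
    exacts [hx, k m1M (q (R_mul' rm1 rx) (R_mul' rx1 rm1) e_m1),
      k m2M (q (R_mul' rm2 rx) (R_mul' rx2 rm2) e_m2)]
  · rw [q rh (R_mul' rx (R_pow' rw' 2)) e_hw]
    exact mul_mem (RB xR) (pow_mem (subset_closure (by simp)) 2)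
  · exact (s2 (by omega) c hc.2).resolve_right fun k => hH.2 (k H hH.1 hc.1)

end Cfsg.Agent.H41.JU3
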