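import Cfsg.Agent.H97.JmDefs
import Cfsg.Prelude.Def_Classical

/-!
# The maximal subgroup `U3(3)` of the fourth Janko group: data and statements of the pieces
-/

set_option autoImplicit false

namespace Cfsg.Agent.H41.JU3

open Subgroup Cfsg.Agent.H97.JM

universe u

/-- The relations of the group `3^{1+2}:8`. -/
structure Rel {G : Type u} [Group G] (x y v w : G) : Prop where
  x1 : x ≠ 1
  x3 : x ^ 3 = 1
  y3 : y ^ 3 = 1
  v3 : v ^ 3 = 1
  xy : x * y = y * x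
  xv : x * v = v * x
  vy : v * y = y * v * x
  wx : w * x = x ^ 2 * w
  wy : w * y = v * w
  wv : w * v = y * v * x ^ 2 * w
  w8 : w ^ 8 = 1
  w4 : w ^ 4 ≠ 1

/-- The extraspecial group of order 27. -/
def RR {G : Type u} [Group G] (x y v : G) : Subgroup G := closure {x, y, v}

/-- Its extension by the cyclic group of order 8. -/
def BB {G : Type u} [Group G] (x y v w : G) : Subgroup G := closure {x, y, v, w}

/-- Subgroups above `M` that miss one of the primes 29, 43. -/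
def Small {G : Type u} [Group G] (M H : Subgroup G) : Prop :=
  M ≤ H ∧ ¬ (29 ∣ Nat.card H ∧ 43 ∣ Nat.card H)

/-- The result of the computations. -/
def CU (G : Type u) [Group G] : Prop :=
  ∃ (M F : Subgroup G) (x y v w s : G), Rel x y v w ∧ M ≠ ⊤ ∧ BB x y v w ≤ M ∧ F ≤ M ∧
    orderOf s = 7 ∧ s ∈ F ∧ F ≤ normalizer ((zpowers s : Subgroup G) : Set G) ∧ Nat.card F = 21 ∧
    (∀ N : Subgroup G, M ≤ normalizer (N : Set G) → x ∈ N → M ≤ N) ∧
    (∀ H : Subgroup G, Small M H → H ⊓ centralizer ({x} : Set G) ≤ BB x y v w) ∧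
    (∀ H : Subgroup G, Small M H → H ⊓ centralizer ({y} : Set G) ≤ RR x y v) ∧
    (∀ H : Subgroup G, Small M H → H ⊓ normalizer ((zpowers s : Subgroup G) : Set G) ≤ F)

/-- Normal forms. -/
def NF : Prop := ∀ (G : Type u) [Group G] (x y v w : G), Rel x y v w →
  ∀ g ∈ RR x y v, ∃ a b c : ℕ, a < 3 ∧ b < 3 ∧ c < 3 ∧ g = x ^ a * y ^ b * v ^ c

def CR : Prop := ∀ (G : Type u) [Group G] [Finite G] (x y v w : G), Rel x y v w →
  Nat.card (RR x y v) = 27

def CB : Prop := ∀ (G : Type u) [Group G] [Finite G] (x y v w : G), Rel x y v w →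
  Nat.card (RR x y v) = 27 → RR x y v ≤ BB x y v w ∧
    BB x y v w ≤ normalizer ((RR x y v : Subgroup G) : Set G) ∧ Nat.card (BB x y v w) = 216

def CLS : Prop := ∀ (G : Type u) [Group G] (x y v w : G), Rel x y v w →
  ∀ g ∈ RR x y v, g ≠ 1 → ∃ b ∈ BB x y v w, b * g * b⁻¹ = x ∨ b * g * b⁻¹ = y

def NRM : Prop := ∀ (G : Type u) [Group G] [Finite G] (x y v w : G), Rel x y v w →
  ∀ g ∈ normalizer ((RR x y v : Subgroup G) : Set G), g * x = x * g ∨ w * g * x = x * (w * g)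

def SE : Prop := ∀ (G : Type u) [Group G] [Finite G] (R B H : Subgroup G), ¬ 81 ∣ Nat.card G →
  Nat.card R = 27 → R ≤ B → B ≤ normalizer (R : Set G) → B ≤ H →
  (∀ g ∈ R, g ≠ 1 → H ⊓ centralizer ({g} : Set G) ≤ B) → H ⊓ normalizer (R : Set G) ≤ B →
  Nat.card H / Nat.card B % 27 = 1

def BIG : Prop := ∀ (G : Type u) [Group G] [Finite G], Ctx G → ∀ H : Subgroup G,
  1512 ∣ Nat.card H → 29 ∣ Nat.card H → 43 ∣ Nat.card H → H = ⊤

def SV : Prop := ∀ (G : Type u) [Group G] [Finite G], Ctx G →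
  (∀ U : Sylow 43 G, IsCoatom (normalizer ((U : Subgroup G) : Set G))) →
  ∀ H : Subgroup G, H ≠ ⊤ → 1512 ∣ Nat.card H → Nat.card H / 216 % 27 = 1 →
    Nat.card H / 21 % 7 = 1 → Nat.card H = 6048

def SIM : Prop := ∀ (G : Type u) [Group G] [Finite G], Ctx G → ∀ (M F : Subgroup G) (x y v w s : G),
  Rel x y v w → Nat.card M = 6048 → Nat.card (RR x y v) = 27 → RR x y v ≤ M → BB x y v w ≤ M →
  (∀ g ∈ RR x y v, g ≠ 1 → ∃ b ∈ BB x y v w, b * g * b⁻¹ = x ∨ b * g * b⁻¹ = y) →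
  M ⊓ centralizer ({y} : Set G) ≤ RR x y v → orderOf s = 7 → s ∈ M →
  M ⊓ centralizer ({s} : Set G) ≤ F → Nat.card F = 21 →
  (∀ N : Subgroup G, M ≤ normalizer (N : Set G) → x ∈ N → M ≤ N) → IsSimpleGroup M

def ID : Prop := ∀ (G : Type u) [Group G] [Finite G] [IsSimpleGroup G], Nat.card G = 6048 →
  ∃ (F : Type) (_ : Field F) (_ : Fintype F), Fintype.card F = 9 ∧ Nonempty (G ≃* Cfsg.PSU 3 F 3)

def FIN : Prop := ∀ (G : Type u) [Group G] [Finite G], Ctx G →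
  (∀ U : Sylow 43 G, IsCoatom (normalizer ((U : Subgroup G) : Set G))) → CU G →
  ∃ M : Subgroup G, IsCoatom M ∧ ∃ (F : Type) (_ : Field F) (_ : Fintype F),
    Fintype.card F = 9 ∧ Nonempty (M ≃* Cfsg.PSU 3 F 3)

end Cfsg.Agent.H41.JU3
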