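import Cfsg.Agent.H97.JmG
import Cfsg.Agent.H90.JmKC
import Cfsg.Agent.H9.JmVC
import Cfsg.Agent.H41.JU3Defs

/-!
# Centralizers inside a small overgroup from two lists of certificates
-/

set_option autoImplicit false

namespace Cfsg.Agent.H41.JU3

open Subgroup Cfsg.Agent.H42 Cfsg.Agent.H46 Cfsg.Agent.H17.J4R Cfsg.Agent.H97.JM

universe u

/-- Every code of `Ks` commutes with `a` and with `b`. -/
noncomputable def cmB (a b : ℕ) (Ks : List ℕ) : Bool :=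
  allL (fun k => andB (Nat.beq (mul k a) (mul a k)) (Nat.beq (mul k b) (mul b k))) Ks

/-- Two lists without a common entry. -/
noncomputable def disB (l m : List ℕ) : Bool :=
  allL (fun a => allL (fun b => notB (Nat.beq a b)) m) l

variable {G : Type u} [Group G] {ρ : G →* GL112}

theorem cm_spec (hρ : Function.Injective ρ) {a b : ℕ} {X Y : G} (r : CG.R a (ρ X))
    (s : CG.R b (ρ Y)) {Ks : List ℕ} (h : ∀ k ∈ Ks, MemC ρ ⊤ k) (c : cmB a b Ks = true) :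
    ∀ k ∈ Ks, MemC ρ (centralizer ({X} : Set G) ⊓ centralizer ({Y} : Set G)) k := by
  intro k hk
  obtain ⟨g, -, t⟩ := h k hk
  obtain ⟨c1, c2⟩ := andB_iff.mp (allL_iff.mp c k hk)
  exact ⟨g, ⟨H33.J4O.mcs.mpr ((eq_of_beq hρ (R_mul' t r) (R_mul' r t)).mp c1),
    H33.J4O.mcs.mpr ((eq_of_beq hρ (R_mul' t s) (R_mul' s t)).mp c2)⟩, t⟩

theorem nodup_of {l m : List ℕ} (h1 : incB l 0 = true) (h2 : incB m 0 = true)
    (h3 : disB l m = true) : (l ++ m).Nodup := by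
  refine List.nodup_append.mpr ⟨pINC _ _ h1, pINC _ _ h2, fun a ha b hb e => ?_⟩
  have := notB_iff.mp (allL_iff.mp (allL_iff.mp h3 a ha) b hb)
  rw [e, Nat.beq_refl] at this
  exact absurd this (by simp)

theorem ex_vp {v : ℕ} (h : ltB v (Nat.pow 2 (112 * 1)) = true) : ∃ x, VP v x :=
  ⟨_, matData.P_dec (Equiv.refl _) (canon_of_lt h)⟩

theorem fix_of {a v : ℕ} {g : GL112} {x : Fin 112 → ZMod 2} (r : CG.R a g) (hv : VP v x) :
    Nat.beq (act a v) v = true ↔ g • x = x :=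
  beq_iff.trans ((matData.vecs (Equiv.refl _)).key_iff (KC.vp_act r hv) hv)

theorem fix_clo {S : Set G} {x : Fin 112 → ZMod 2} (h : ∀ g ∈ S, ρ g • x = x) :
    ∀ z ∈ closure S, ρ z • x = x := by
  have : closure S ≤ (MulAction.stabilizer GL112 x).comap ρ := (closure_le _).mpr h
  exact fun z hz => this hz

theorem step [Finite G] (K M M' Z E : Subgroup G) (t : G) (x1 x2 : Fin 112 → ZMod 2)
    (k0 k1 kc : List ℕ) (nd : (k0 ++ k1).Nodup) (ndc : kc.Nodup)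
    (h0 : ∀ key ∈ k0, GoodO ρ E M' t x1 2 2 key) (h1 : ∀ key ∈ k1, GoodO ρ K M t x1 29 43 key)
    (hc : ∀ key ∈ kc, GoodC ρ (K ⊓ centralizer ({t} : Set G)) M x2 29 43 key)
    (EK : E ≤ K) (EM : E ≤ M) (tM : t ∈ M) (ZK : Z ≤ K ⊓ centralizer ({t} : Set G)) (ZM : Z ≤ M)
    (fix : ∀ z ∈ Z, ρ z • x2 = x2) (pos : 0 < (k0 ++ k1).length)
    (card : Nat.card K = (k0 ++ k1).length * (kc.length * Nat.card Z)) :
    ∀ H : Subgroup G, Small M H → H ⊓ K ≤ E ⊔ Z := by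
  have hcj : ∀ a z : G, z ∈ K ⊓ centralizer ({t} : Set G) →
      a * z * t * (a * z)⁻¹ = a * t * a⁻¹ := by
    intro a z hz
    have h1 : z * t = t * z := H33.J4O.mcs.mp hz.2
    rw [mul_assoc a z t, h1]
    group
  obtain ⟨w1, w2⟩ := VC.gen K (K ⊓ centralizer ({t} : Set G)) inf_le_left (k0 ++ k1) nd
    (fun key c => VP key (ρ (c * t * c⁻¹) • x1) ∧ (c ∈ E ∨ ∀ H : Subgroup G, M ≤ H →
      c * t * c⁻¹ ∈ H → 29 ∣ Nat.card H ∧ 43 ∣ Nat.card H)) (by
      intro key hk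
      rcases List.mem_append.mp hk with hk | hk
      · obtain ⟨c, c1, c2, -⟩ := h0 key hk
        exact ⟨c, EK c1, c2, Or.inl c1⟩
      · obtain ⟨c, c1, c2, c3⟩ := h1 key hk
        exact ⟨c, c1, c2, c3.imp_left fun e => by rw [e]; exact E.one_mem⟩) (by
      intro k k' a z hz h h'
      have h3 := h'.1
      rw [hcj a z hz] at h3
      exact VC.vp_key h.1 h3)
  obtain ⟨v1, v2⟩ := pVC G ρ _ M Z x2 29 43 kc ndc hc ZK ZM fix
  have e1 : Nat.card ↥(K ⊓ centralizer ({t} : Set G)) ≤ kc.length * Nat.card Z :=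
    Nat.le_of_mul_le_mul_left (card ▸ w1) pos
  intro H hH c hc
  obtain ⟨key, -, a, -, ⟨-, ha⟩, hz⟩ := w2 (card ▸ Nat.mul_le_mul_left _ v1) c hc.2
  rcases ha with ha | ha
  · rcases v2 e1 _ hz with hz' | hz'
    · have := (E ⊔ Z).mul_mem (mem_sup_left ha) (mem_sup_right hz')
      rwa [mul_inv_cancel_left] at this
    · exact absurd (hz' H hH.1 (H.mul_mem (H.inv_mem (hH.1 (EM ha))) hc.1)) hH.2
  · refine absurd (ha H hH.1 ?_) hH.2
    have h3 := hcj a _ hz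
    rw [mul_inv_cancel_left] at h3
    rw [← h3]
    exact H.mul_mem (H.mul_mem hc.1 (hH.1 tM)) (H.inv_mem hc.1)

end Cfsg.Agent.H41.JU3
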