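import Cfsg.Agent.H41.JU3D

/-!
# Certificates
-/

set_option autoImplicit false
set_option maxRecDepth 1000000

namespace Cfsg.Agent.H41.JU3

open Cfsg.Agent.H42 Cfsg.Agent.H46 Cfsg.Agent.H17.J4R Cfsg.Agent.H97.JM

def teX_0 : List Item := [([0, 1], 0x4fc1b74bbae469f493906bf4aef5, [0], [0]),
  ([0, 1, 1], 0x704174c135a1eddb3d21e940bb7c, [0], [0]),
  ([1], 0x7feb4d51985fc2d6487112ef010a, [0], [0]),
  ([1, 1], 0xbc1da78b4b61044ba7b5c6048b79, [0], [0]),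
  ([0], 0xc007416d1c0413429d1afd048dfd, [0], [0]),
  ([0, 0, 1], 0xc166208e84c6ebe2e31d11f90dbe, [0], [0]),
  ([], 0xdf90bec2ca69d4f296cb326c3b70, [0], [0]),
  ([0, 0, 1, 1], 0xe350f3aa9b07840c84568dd259ed, [0], [0]),
  ([0, 0], 0xe4488074a5cf3d9407b54eeee730, [0], [0])]

theorem teX_0_chk : allL (orbB [uE_0, uE_1] [uE_7, uE_8] [] uE_5 vOX [false] [false]) teX_0 = true := by decide +kernel


end Cfsg.Agent.H41.JU3
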