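import Cfsg.Agent.H41.JU3D

/-!
# Certificates
-/

set_option autoImplicit false
set_option maxRecDepth 1000000

namespace Cfsg.Agent.H41.JU3

open Cfsg.Agent.H42 Cfsg.Agent.H46 Cfsg.Agent.H17.J4R Cfsg.Agent.H97.JM

def teY_0 : List Item := [([], 0x20b390b6a9222d212e768022a989, [0], [0]),
  ([0], 0x2a5e44f78c2e2d78ebda955eff03, [0], [0]),
  ([0, 0], 0xce954822f67ac7af9b89f13b06d6, [0], [0])]

theorem teY_0_chk : allL (orbB [uE_0] [uE_7] [] uE_5 vOY [false] [false]) teY_0 = true := by decide +kernel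


end Cfsg.Agent.H41.JU3
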