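import Cfsg.Agent.H41.JU3toXa
import Cfsg.Agent.H41.JU3toXb
import Cfsg.Agent.H41.JU3toXc
import Cfsg.Agent.H41.JU3toXd
import Cfsg.Agent.H41.JU3toYa
import Cfsg.Agent.H41.JU3toYb
import Cfsg.Agent.H41.JU3toYc
import Cfsg.Agent.H41.JU3toYd
import Cfsg.Agent.H41.JU3tcXa
import Cfsg.Agent.H41.JU3tcYa
import Cfsg.Agent.H41.JU3tcYb
import Cfsg.Agent.H41.JU3tcYc
import Cfsg.Agent.H41.JU3tcSa
import Cfsg.Agent.H41.JU3teXa
import Cfsg.Agent.H41.JU3teYa

/-!
# The lists of certificates
-/

set_option autoImplicit false
set_option maxRecDepth 1000000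

namespace Cfsg.Agent.H41.JU3

open Cfsg.Agent.H42 Cfsg.Agent.H46 Cfsg.Agent.H17.J4R Cfsg.Agent.H97.JM

def toX : List Item := toX_0 ++ (toX_1 ++ (toX_2 ++ (toX_3 ++ (toX_4 ++ (toX_5 ++ (toX_6 ++ (toX_7 ++ (toX_8 ++ (toX_9 ++ (toX_10 ++ (toX_11 ++ (toX_12 ++ (toX_13 ++ (toX_14 ++ (toX_15 ++ (toX_16 ++ (toX_17 ++ (toX_18 ++ (toX_19 ++ (toX_20 ++ (toX_21 ++ (toX_22))))))))))))))))))))))

theorem toX_chk : allL (orbB CX IX uL uE_5 vOX [true, true, false, true] [false, true, false, true, true]) toX = true :=
  allL_append toX_0_chk (allL_append toX_1_chk (allL_append toX_2_chk (allL_append toX_3_chk (allL_append toX_4_chk (allL_append toX_5_chk (allL_append toX_6_chk (allL_append toX_7_chk (allL_append toX_8_chk (allL_append toX_9_chk (allL_append toX_10_chk (allL_append toX_11_chk (allL_append toX_12_chk (allL_append toX_13_chk (allL_append toX_14_chk (allL_append toX_15_chk (allL_append toX_16_chk (allL_append toX_17_chk (allL_append toX_18_chk (allL_append toX_19_chk (allL_append toX_20_chk (allL_append toX_21_chk (toX_22_chk))))))))))))))))))))))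

theorem toX_inc : incB (toX.map fun it => it.2.1) 0 = true := by decide +kernel

theorem toX_len : (toX.map fun it => it.2.1).length = 1146 := by decide +kernel

def toY : List Item := toY_0 ++ (toY_1 ++ (toY_2 ++ (toY_3 ++ (toY_4 ++ (toY_5 ++ (toY_6 ++ (toY_7 ++ (toY_8 ++ (toY_9 ++ (toY_10 ++ (toY_11 ++ (toY_12 ++ (toY_13 ++ (toY_14 ++ (toY_15 ++ (toY_16 ++ (toY_17 ++ (toY_18 ++ (toY_19)))))))))))))))))))

theorem toY_chk : allL (orbB CY IY uL uE_5 vOY [true, true, false, true] [false, true, false, true, true]) toY = true :=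
  allL_append toY_0_chk (allL_append toY_1_chk (allL_append toY_2_chk (allL_append toY_3_chk (allL_append toY_4_chk (allL_append toY_5_chk (allL_append toY_6_chk (allL_append toY_7_chk (allL_append toY_8_chk (allL_append toY_9_chk (allL_append toY_10_chk (allL_append toY_11_chk (allL_append toY_12_chk (allL_append toY_13_chk (allL_append toY_14_chk (allL_append toY_15_chk (allL_append toY_16_chk (allL_append toY_17_chk (allL_append toY_18_chk (toY_19_chk)))))))))))))))))))

theorem toY_inc : incB (toY.map fun it => it.2.1) 0 = true := by decide +kernel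

theorem toY_len : (toY.map fun it => it.2.1).length = 987 := by decide +kernel

def tcX : List Item := tcX_0 ++ (tcX_1 ++ (tcX_2 ++ (tcX_3)))

theorem tcX_chk : allL (cosB KX uL vCX [true, true, false, true] [false, true, false, true, true]) tcX = true :=
  allL_append tcX_0_chk (allL_append tcX_1_chk (allL_append tcX_2_chk (tcX_3_chk)))

theorem tcX_inc : incB (tcX.map fun it => it.2.1) 0 = true := by decide +kernel

theorem tcX_len : (tcX.map fun it => it.2.1).length = 192 := by decide +kernel

def tcY : List Item := tcY_0 ++ (tcY_1 ++ (tcY_2 ++ (tcY_3 ++ (tcY_4 ++ (tcY_5 ++ (tcY_6 ++ (tcY_7 ++ (tcY_8 ++ (tcY_9 ++ (tcY_10 ++ (tcY_11 ++ (tcY_12 ++ (tcY_13 ++ (tcY_14 ++ (tcY_15 ++ (tcY_16 ++ (tcY_17)))))))))))))))))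

theorem tcY_chk : allL (cosB KY uL vCY [true, true, false, true] [false, true, false, true, true]) tcY = true :=
  allL_append tcY_0_chk (allL_append tcY_1_chk (allL_append tcY_2_chk (allL_append tcY_3_chk (allL_append tcY_4_chk (allL_append tcY_5_chk (allL_append tcY_6_chk (allL_append tcY_7_chk (allL_append tcY_8_chk (allL_append tcY_9_chk (allL_append tcY_10_chk (allL_append tcY_11_chk (allL_append tcY_12_chk (allL_append tcY_13_chk (allL_append tcY_14_chk (allL_append tcY_15_chk (allL_append tcY_16_chk (tcY_17_chk)))))))))))))))))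

theorem tcY_inc : incB (tcY.map fun it => it.2.1) 0 = true := by decide +kernel

theorem tcY_len : (tcY.map fun it => it.2.1).length = 896 := by decide +kernel

def tcS : List Item := tcS_0 ++ (tcS_1 ++ (tcS_2))

theorem tcS_chk : allL (cosB KS uL vCS [true, true, false, true] [false, true, false, true, true]) tcS = true :=
  allL_append tcS_0_chk (allL_append tcS_1_chk (tcS_2_chk))

theorem tcS_inc : incB (tcS.map fun it => it.2.1) 0 = true := by decide +kernel

theorem tcS_len : (tcS.map fun it => it.2.1).length = 120 := by decide +kernel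

def teX : List Item := teX_0

theorem teX_chk : allL (orbB [uE_0, uE_1] [uE_7, uE_8] [] uE_5 vOX [false] [false]) teX = true :=
  teX_0_chk

theorem teX_inc : incB (teX.map fun it => it.2.1) 0 = true := by decide +kernel

theorem teX_len : (teX.map fun it => it.2.1).length = 9 := by decide +kernel

def teY : List Item := teY_0

theorem teY_chk : allL (orbB [uE_0] [uE_7] [] uE_5 vOY [false] [false]) teY = true :=
  teY_0_chk

theorem teY_inc : incB (teY.map fun it => it.2.1) 0 = true := by decide +kernel

theorem teY_len : (teY.map fun it => it.2.1).length = 3 := by decide +kernel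

theorem disX : disB (teX.map fun it => it.2.1) (toX.map fun it => it.2.1) = true := by decide +kernel

theorem disY : disB (teY.map fun it => it.2.1) (toY.map fun it => it.2.1) = true := by decide +kernel


end Cfsg.Agent.H41.JU3
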