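import Cfsg.Agent.H41.LpKitA

/-! Project LP: orders of the parabolic subgroups of the model. -/

set_option autoImplicit false

namespace Cfsg.Agent.H41.LpKit

open Cfsg Subgroup Matrix Cfsg.Agent.H17.LP

theorem Dl {n : ℕ} (g : Matrix (Fin (n + 1)) (Fin (n + 1)) F)
    (h : ∀ j, g (Fin.last n) j = (1 : Matrix (Fin (n + 1)) (Fin (n + 1)) F) (Fin.last n) j) :
    g.det = (g.submatrix Fin.castSucc Fin.castSucc).det := by
  rw [det_succ_row g (Fin.last n), Finset.sum_eq_single (Fin.last n)]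
  · simp [h, Fin.succAbove_last]
  · intro b _ hb
    rw [h, one_apply_ne hb.symm]; simp
  · simp

/-- bordering a matrix -/
def bd {n : ℕ} (A : Matrix (Fin n) (Fin n) F) (b : Fin n → F) :
    Matrix (Fin (n + 1)) (Fin (n + 1)) F :=
  of fun i j => Fin.lastCases ((1 : Matrix (Fin (n + 1)) (Fin (n + 1)) F) (Fin.last n) j)
    (fun i' => Fin.lastCases (b i') (fun j' => A i' j') j) i

theorem bd_last {n : ℕ} (A : Matrix (Fin n) (Fin n) F) (b : Fin n → F) (j : Fin (n + 1)) :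
    bd A b (Fin.last n) j = (1 : Matrix (Fin (n + 1)) (Fin (n + 1)) F) (Fin.last n) j := by
  simp [bd]

theorem bd_col {n : ℕ} (A : Matrix (Fin n) (Fin n) F) (b : Fin n → F) (i : Fin n) :
    bd A b i.castSucc (Fin.last n) = b i := by simp [bd]

theorem bd_cc {n : ℕ} (A : Matrix (Fin n) (Fin n) F) (b : Fin n → F) (i j : Fin n) :
    bd A b i.castSucc j.castSucc = A i j := by simp [bd]

theorem bd_det {n : ℕ} (A : Matrix (Fin n) (Fin n) F) (b : Fin n → F) : (bd A b).det = A.det := by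
  rw [Dl _ (bd_last A b)]
  congr 1
  exact Matrix.ext (bd_cc A b)

/-- matrices with last row that of the identity -/
theorem card_bd {n : ℕ} (P : Matrix (Fin (n + 1)) (Fin (n + 1)) F → Prop)
    (Q : Matrix (Fin n) (Fin n) F → Prop) (R : (Fin n → F) → Prop)
    (h0 : ∀ g, P g → ∀ j, g (Fin.last n) j = (1 : Matrix (Fin (n + 1)) (Fin (n + 1)) F) (Fin.last n) j)
    (h : ∀ A b, P (bd A b) ↔ Q A ∧ R b) :
    Nat.card {g // P g} = Nat.card {A // Q A} * Nat.card {b // R b} := by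
  rw [← Nat.card_prod]
  symm
  refine Nat.card_eq_of_bijective (fun p => ⟨bd p.1.1 p.2.1, (h _ _).2 ⟨p.1.2, p.2.2⟩⟩)
    ⟨fun p q e => ?_, fun g => ?_⟩
  · have e' : bd p.1.1 p.2.1 = bd q.1.1 q.2.1 := congrArg Subtype.val e
    refine Prod.ext (Subtype.ext (Matrix.ext fun i j => ?_)) (Subtype.ext (funext fun i => ?_))
    · rw [← bd_cc p.1.1 p.2.1, e', bd_cc]
    · rw [← bd_col p.1.1 p.2.1, e', bd_col]
  · have e : bd (g.1.submatrix Fin.castSucc Fin.castSucc) (fun i => g.1 i.castSucc (Fin.last n)) =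
        g.1 := by
      refine Matrix.ext fun i j => ?_
      refine Fin.lastCases ?_ (fun i => ?_) i
      · rw [bd_last, h0 g.1 g.2]
      · refine Fin.lastCases ?_ (fun j => ?_) j
        · rw [bd_col]
        · rw [bd_cc]; rfl
    have k := (h _ _).1 (e.symm ▸ g.2)
    exact ⟨(⟨_, k.1⟩, ⟨_, k.2⟩), Subtype.ext e⟩

theorem card_GR' (R : ℕ → ℕ → Bool) : Nat.card (GR R) = Nat.card
    {g : M5 // g.det = 1 ∧ ∀ i j : Fin 5, R (i + 1) (j + 1) = false → g i j = (1 : M5) i j} :=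
  Nat.card_congr
    { toFun := fun g => ⟨g.1.1, g.1.2, g.2⟩
      invFun := fun g => ⟨⟨g.1, g.2.1⟩, g.2.2⟩
      left_inv := fun _ => rfl
      right_inv := fun _ => rfl }

theorem card_true (α : Type) : Nat.card {_x : α // True} = Nat.card α :=
  Nat.card_congr (Equiv.subtypeUnivEquiv fun _ => trivial)

theorem card_zero {n : ℕ} : Nat.card {b : Fin n → F // b = 0} = 1 := Nat.card_unique

theorem one_cc {n : ℕ} (i j : Fin n) :
    (1 : Matrix (Fin (n + 1)) (Fin (n + 1)) F) i.castSucc j.castSucc =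
      (1 : Matrix (Fin n) (Fin n) F) i j := by simp [one_apply]

theorem one_cl {n : ℕ} (i : Fin n) :
    (1 : Matrix (Fin (n + 1)) (Fin (n + 1)) F) i.castSucc (Fin.last n) = 0 :=
  one_apply_ne (Fin.castSucc_ne_last i)

/-- the pattern condition for a bordered matrix -/
theorem pat_bd {n : ℕ} (R : Fin (n + 1) → Fin (n + 1) → Prop) (A : Matrix (Fin n) (Fin n) F)
    (b : Fin n → F) :
    (∀ i j, R i j → bd A b i j = (1 : Matrix (Fin (n + 1)) (Fin (n + 1)) F) i j) ↔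
      (∀ i j : Fin n, R i.castSucc j.castSucc → A i j = (1 : Matrix (Fin n) (Fin n) F) i j) ∧
        ∀ i : Fin n, R i.castSucc (Fin.last n) → b i = 0 := by
  refine ⟨fun h => ⟨fun i j c => ?_, fun i c => ?_⟩, fun h i j => ?_⟩
  · rw [← bd_cc A b, h _ _ c, one_cc]
  · rw [← bd_col A b, h _ _ c, one_cl]
  · refine Fin.lastCases (fun _ => bd_last A b j) (fun i => ?_) i
    refine Fin.lastCases (fun c => ?_) (fun j c => ?_) j
    · rw [bd_col, h.2 i c, one_cl]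
    · rw [bd_cc, h.1 i j c, one_cc]

theorem card_N1 : Nat.card N1 = 2 ^ 20 * 315 := by
  have k : ∀ i : Fin 4, ¬ decide ((i.castSucc : ℕ) + 1 ≤ 4) = false := by decide
  rw [N1, card_Pat, card_all, card_GR', card_bd _ (fun A => A.det = 1) (fun _ => True)
    (fun g h j => h.2 _ j rfl) fun A b => by
      rw [bd_det, pat_bd]
      exact ⟨fun h => ⟨h.1, trivial⟩,
        fun h => ⟨h.1, fun i j c => absurd c (k i), fun i c => absurd c (k i)⟩⟩, card_true]
  change _ * (Nat.card (SpecialLinearGroup (Fin 4) F) * _) = _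
  rw [card_SL4, Nat.card_fun, Nat.card_zmod, Nat.card_fin]
  norm_num

theorem card_La : Nat.card La = 168 := by
  have k : ∀ i j : Fin 4, decide ((i.castSucc : ℕ) + 1 ≤ 3 ∧ (j.castSucc : ℕ) + 1 ≤ 3) = false ↔
    i = 3 ∨ j = 3 := by decide
  have k' : ∀ i : Fin 4, decide ((i.castSucc : ℕ) + 1 ≤ 3 ∧ (Fin.last 4 : ℕ) + 1 ≤ 3) = false := by
    decide
  have k2 : ∀ i j : Fin 3, ¬ (i.castSucc = 3 ∨ j.castSucc = 3) := by decide
  rw [La, card_Pat, card_AS, card_GR', card_bd _ (fun A => A.det = 1 ∧ ∀ i j, i = 3 ∨ j = 3 →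
      A i j = (1 : Matrix (Fin 4) (Fin 4) F) i j) (fun b => b = 0)
    (fun g h j => h.2 _ j (by simp)) fun A b => by
      rw [bd_det, pat_bd]
      simp only [k, k', funext_iff, Pi.zero_apply, forall_const, and_assoc],
    card_bd _ (fun A => A.det = 1) (fun b => b = 0) (fun g h j => h.2 _ j (Or.inl rfl)) fun A b => by
      rw [bd_det, pat_bd]
      exact ⟨fun h => ⟨h.1, funext fun i => h.2.2 i (Or.inr rfl)⟩,
        fun h => ⟨h.1, fun i j c => absurd c (k2 i j), fun i _ => congrFun h.2 i⟩⟩,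
    card_zero, card_zero, show Fintype.card {p // PS (fun _ _ => false) p} = 0 by decide +kernel]
  change _ * (Nat.card SL3 * _ * _) = _
  rw [card_SL3]
  norm_num

theorem D4 (a b c d e f g h k l n o : F) :
    (!![a, b, c, d; e, f, g, h; 0, 0, k, l; 0, 0, n, o] : Matrix (Fin 4) (Fin 4) F).det =
      (a * f - b * e) * (k * o - l * n) := by
  simp [det_succ_row_zero, Fin.sum_univ_succ, Fin.succAbove, sub_eq_add_neg]
  ring

abbrev F4 := F × F × F × F

def m4 (p q r : F4) : Matrix (Fin 4) (Fin 4) F :=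
  !![p.1, p.2.1, r.1, r.2.1; p.2.2.1, p.2.2.2, r.2.2.1, r.2.2.2; 0, 0, q.1, q.2.1;
    0, 0, q.2.2.1, q.2.2.2]

theorem m4_pat (p q r : F4) (i j : Fin 4) (h : 2 ≤ (i : ℕ) ∧ (j : ℕ) < 2) :
    m4 p q r i j = (1 : Matrix (Fin 4) (Fin 4) F) i j := by
  fin_cases i <;> fin_cases j <;> first | rfl | simp at h

theorem m4_ex (A : Matrix (Fin 4) (Fin 4) F)
    (h : ∀ i j : Fin 4, 2 ≤ (i : ℕ) ∧ (j : ℕ) < 2 → A i j = (1 : Matrix (Fin 4) (Fin 4) F) i j) :
    m4 (A 0 0, A 0 1, A 1 0, A 1 1) (A 2 2, A 2 3, A 3 2, A 3 3) (A 0 2, A 0 3, A 1 2, A 1 3) = A := by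
  have h1 : (0 : F) = A 2 0 := (h 2 0 (by decide)).symm
  have h2 : (0 : F) = A 2 1 := (h 2 1 (by decide)).symm
  have h3 : (0 : F) = A 3 0 := (h 3 0 (by decide)).symm
  have h4 : (0 : F) = A 3 1 := (h 3 1 (by decide)).symm
  clear h
  ext i j
  fin_cases i <;> fin_cases j <;> first | rfl | assumption

theorem m4_inj {p q r p' q' r' : F4} (e : m4 p q r = m4 p' q' r') : p = p' ∧ q = q' ∧ r = r' := by
  have k := fun i j => congrFun (congrFun e i) j
  exact ⟨Prod.ext (k 0 0) (Prod.ext (k 0 1) (Prod.ext (k 1 0) (k 1 1))),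
    Prod.ext (k 2 2) (Prod.ext (k 2 3) (Prod.ext (k 3 2) (k 3 3))),
    Prod.ext (k 0 2) (Prod.ext (k 0 3) (Prod.ext (k 1 2) (k 1 3)))⟩

def d2 (p : F4) : F := p.1 * p.2.2.2 - p.2.1 * p.2.2.1

theorem m4_det (p q r : F4) : (m4 p q r).det = 1 ↔ d2 p = 1 ∧ d2 q = 1 := by
  have k : ∀ x y : F, x * y = 1 ↔ x = 1 ∧ y = 1 := by decide
  rw [m4, D4, k]; rfl

theorem card_blk : Nat.card {A : Matrix (Fin 4) (Fin 4) F // A.det = 1 ∧
    ∀ i j : Fin 4, 2 ≤ (i : ℕ) ∧ (j : ℕ) < 2 → A i j = (1 : Matrix (Fin 4) (Fin 4) F) i j} = 576 := by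
  have : Nat.card ({p // d2 p = 1} × {p // d2 p = 1} × F4) = 576 := by
    rw [Nat.card_prod, Nat.card_prod, Nat.card_eq_fintype_card, Nat.card_eq_fintype_card,
      show Fintype.card {p // d2 p = 1} = 6 by decide +kernel,
      show Fintype.card F4 = 16 by decide +kernel]
  rw [← this]
  symm
  refine Nat.card_eq_of_bijective (fun p => ⟨m4 p.1.1 p.2.1.1 p.2.2,
    (m4_det _ _ _).2 ⟨p.1.2, p.2.1.2⟩, m4_pat _ _ _⟩) ⟨fun p q e => ?_, fun A => ?_⟩
  · obtain ⟨h1, h2, h3⟩ := m4_inj (congrArg Subtype.val e)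
    exact Prod.ext (Subtype.ext h1) (Prod.ext (Subtype.ext h2) h3)
  · have e := m4_ex A.1 A.2.2
    have k := (m4_det _ _ _).1 (e.symm ▸ A.2.1)
    exact ⟨(⟨_, k.1⟩, ⟨_, k.2⟩, _), Subtype.ext e⟩

theorem card_NH : Nat.card ↥(N1 ⊓ H0) = 2 ^ 20 * 9 := by
  have e : N1 ⊓ H0 = Pat (fun _ _ => true) (fun i j => decide (i ≤ 4) && decide (i ≤ 2 ∨ 3 ≤ j)) := by
    ext n
    rw [mem_inf, N1, H0, mem_Pat, mem_Pat, mem_Pat]
    simp only [Bool.and_eq_false_iff]
    exact ⟨fun h => ⟨h.1.1, fun i j c => c.elim (h.1.2 i j) (h.2.2 i j)⟩,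
      fun h => ⟨⟨h.1, fun i j c => h.2 i j (Or.inl c)⟩, h.1, fun i j c => h.2 i j (Or.inr c)⟩⟩
  have k : ∀ i j : Fin 4, (decide ((i.castSucc : ℕ) + 1 ≤ 4) &&
      decide ((i.castSucc : ℕ) + 1 ≤ 2 ∨ 3 ≤ (j.castSucc : ℕ) + 1)) = false ↔
    2 ≤ (i : ℕ) ∧ (j : ℕ) < 2 := by decide
  have k' : ∀ i : Fin 4, ¬ (decide ((i.castSucc : ℕ) + 1 ≤ 4) &&
      decide ((i.castSucc : ℕ) + 1 ≤ 2 ∨ 3 ≤ (Fin.last 4 : ℕ) + 1)) = false := by decide
  rw [e, card_Pat, card_all, card_GR', card_bd _ (fun A => A.det = 1 ∧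
      ∀ i j : Fin 4, 2 ≤ (i : ℕ) ∧ (j : ℕ) < 2 → A i j = (1 : Matrix (Fin 4) (Fin 4) F) i j)
      (fun _ => True) (fun g h j => h.2 _ j rfl) fun A b => by
      rw [bd_det, pat_bd]
      exact ⟨fun h => ⟨⟨h.1, fun i j c => h.2.1 i j ((k i j).2 c)⟩, trivial⟩,
        fun h => ⟨h.1.1, fun i j c => h.1.2 i j ((k i j).1 c), fun i c => absurd c (k' i)⟩⟩,
    card_true, card_blk, Nat.card_fun, Nat.card_zmod, Nat.card_fin]
  norm_num

theorem kit : KitStmt :=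
  ⟨card_N0, card_A0, card_T0, card_L0, card_U0, card_V0, card_Ap, card_App, card_QA, card_N1,
    card_NH, card_La, card_Z6, card_J0, card_A1⟩

end Cfsg.Agent.H41.LpKit
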