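import Cfsg.Agent.H17.LPDefs
import Cfsg.Agent.S0242
import Cfsg.Agent.H3.Cores

/-! Project LP: orders of the subgroups of the model. -/

set_option autoImplicit false

namespace Cfsg.Agent.H41.LpKit

open Cfsg Subgroup Matrix Cfsg.Agent.H17.LP

abbrev AS (S : ℕ → ℕ → Bool) : Type :=
  {a : M5 // Alt a ∧ ∀ i j : Fin 5, S (i + 1) (j + 1) = false → a i j = 0}
abbrev GR (R : ℕ → ℕ → Bool) : Type :=
  {g : SL5 // ∀ i j : Fin 5, R (i + 1) (j + 1) = false → g.1 i j = (1 : M5) i j}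

theorem card_Pat (S R : ℕ → ℕ → Bool) (h : Cl S R) :
    Nat.card (Pat S R h) = Nat.card (AS S) * Nat.card (GR R) := by
  rw [← Nat.card_prod]
  exact Nat.card_congr
    { toFun := fun n => (⟨n.1.a, n.1.alt, n.2.1⟩, ⟨n.1.g, n.2.2⟩)
      invFun := fun p => ⟨⟨p.1.1, p.2.1, p.1.2.1⟩, p.1.2.2, p.2.2⟩
      left_inv := fun _ => rfl
      right_inv := fun _ => rfl }

def PS (S : ℕ → ℕ → Bool) (p : Fin 5 × Fin 5) : Prop :=
  p.1 < p.2 ∧ S (p.1 + 1) (p.2 + 1) = true ∧ S (p.2 + 1) (p.1 + 1) = true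

instance (S : ℕ → ℕ → Bool) : DecidablePred (PS S) := fun p => by unfold PS; infer_instance

theorem card_AS (S : ℕ → ℕ → Bool) : Nat.card (AS S) = 2 ^ Fintype.card {p // PS S p} := by
  have : Nat.card (AS S) = Nat.card ({p // PS S p} → F) := by
    refine Nat.card_eq_of_bijective (fun a p => a.1 p.1.1 p.1.2) ⟨fun a b e => ?_, fun f => ?_⟩
    · have k : ∀ i j : Fin 5, i < j → a.1 i j = b.1 i j := fun i j ij => by
        by_cases c1 : S (i + 1) (j + 1) = false
        · rw [a.2.2 i j c1, b.2.2 i j c1]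
        by_cases c2 : S (j + 1) (i + 1) = false
        · rw [a.2.1.symm, b.2.1.symm, a.2.2 j i c2, b.2.2 j i c2]
        exact congrFun e ⟨(i, j), ij, by simpa using c1, by simpa using c2⟩
      refine Subtype.ext (Matrix.ext fun i j => ?_)
      rcases lt_trichotomy i j with c | rfl | c
      · exact k i j c
      · rw [a.2.1.2, b.2.1.2]
      · rw [a.2.1.symm, b.2.1.symm, k j i c]
    · refine ⟨⟨of fun i j => if h : PS S (i, j) then f ⟨_, h⟩ else if h : PS S (j, i) then f ⟨_, h⟩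
        else 0, ⟨Matrix.ext fun i j => ?_, fun i => ?_⟩, fun i j c => ?_⟩, funext fun p => ?_⟩
      · simp only [transpose_apply, of_apply]
        by_cases c1 : PS S (i, j) <;> by_cases c2 : PS S (j, i)
        · exact absurd c1.1 (not_lt_of_gt c2.1)
        · simp [c1, c2]
        · simp [c1, c2]
        · simp [c1, c2]
      · have : ¬ PS S (i, i) := fun c => lt_irrefl _ c.1
        simp [this]
      · have c1 : ¬ PS S (i, j) := fun d => by simp [d.2.1] at c
        have c2 : ¬ PS S (j, i) := fun d => by simp [d.2.2] at c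
        simp [c1, c2]
      · simp [p.2]
  rw [this, Nat.card_fun, Nat.card_zmod, Nat.card_eq_fintype_card]

theorem card_GR (R : ℕ → ℕ → Bool) (hR : ∀ i j : Fin 5, R (i + 1) (j + 1) = true → i < j) :
    Nat.card (GR R) = 2 ^ Fintype.card {p : Fin 5 × Fin 5 // R (p.1 + 1) (p.2 + 1) = true} := by
  have : Nat.card (GR R) = Nat.card ({p : Fin 5 × Fin 5 // R (p.1 + 1) (p.2 + 1) = true} → F) := by
    refine Nat.card_eq_of_bijective (fun g p => g.1.1 p.1.1 p.1.2) ⟨fun a b e => ?_, fun f => ?_⟩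
    · refine Subtype.ext (Subtype.ext (Matrix.ext fun i j => ?_))
      by_cases c : R (i + 1) (j + 1) = false
      · rw [a.2 i j c, b.2 i j c]
      · exact congrFun e ⟨(i, j), by simpa using c⟩
    · refine ⟨⟨⟨of fun i j => if h : R (i + 1) (j + 1) = true then f ⟨(i, j), h⟩ else (1 : M5) i j,
        ?_⟩, fun i j c => by simp [c]⟩, funext fun p => by simp [p.2]⟩
      rw [det_of_isUpperTriangular]
      · refine Finset.prod_eq_one fun i _ => ?_
        have : ¬ R (i + 1) (i + 1) = true := fun c => lt_irrefl _ (hR i i c)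
        simp [this]
      · intro i j c
        have : ¬ R (i + 1) (j + 1) = true := fun d => not_lt_of_gt c (hR i j d)
        simp only [of_apply, this, dif_neg, not_false_eq_true, Bool.false_eq_true]
        exact one_apply_ne (ne_of_gt c)
  rw [this, Nat.card_fun, Nat.card_zmod, Nat.card_eq_fintype_card]

theorem card_uni {S R : ℕ → ℕ → Bool} {h : Cl S R} (n : ℕ)
    (hR : (∀ i j : Fin 5, R (i + 1) (j + 1) = true → i < j) ∧ Fintype.card {p // PS S p} +
      Fintype.card {p : Fin 5 × Fin 5 // R (p.1 + 1) (p.2 + 1) = true} = n) :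
    Nat.card (Pat S R h) = 2 ^ n := by
  rw [card_Pat, card_AS, card_GR R hR.1, ← pow_add, hR.2]

theorem card_A0 : Nat.card A0 = 2 ^ 10 := card_uni 10 (by decide +kernel)
theorem card_T0 : Nat.card T0 = 2 ^ 20 := card_uni 20 (by decide +kernel)
theorem card_L0 : Nat.card L0 = 2 ^ 15 := card_uni 15 (by decide +kernel)
theorem card_U0 : Nat.card U0 = 2 ^ 3 := card_uni 3 (by decide +kernel)
theorem card_V0 : Nat.card V0 = 2 ^ 2 := card_uni 2 (by decide +kernel)
theorem card_Ap : Nat.card Ap = 2 ^ 10 := card_uni 10 (by decide +kernel)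
theorem card_QA : Nat.card QA = 2 ^ 16 := card_uni 16 (by decide +kernel)
theorem card_Q0 : Nat.card Q0 = 2 ^ 13 := card_uni 13 (by decide +kernel)
theorem card_Z0 : Nat.card Z0 = 2 ^ 1 := card_uni 1 (by decide +kernel)
theorem card_Z6 : Nat.card Z6 = 2 ^ 6 := card_uni 6 (by decide +kernel)
theorem card_J0 : Nat.card J0 = 2 ^ 14 := card_uni 14 (by decide +kernel)
theorem card_A1 : Nat.card A1 = 2 ^ 7 := card_uni 7 (by decide +kernel)

theorem card_SL5 : Nat.card SL5 = 9999360 := by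
  have := S0242.result (F := ZMod 2) (q := 2) (by simp) 5 (by norm_num)
  rw [show 2 - 1 = 1 from rfl, one_mul] at this
  rw [this]; decide

theorem card_SL4 : Nat.card (SpecialLinearGroup (Fin 4) F) = 20160 := by
  have := S0242.result (F := ZMod 2) (q := 2) (by simp) 4 (by norm_num)
  rw [show 2 - 1 = 1 from rfl, one_mul] at this
  rw [this]; decide

theorem card_SL3 : Nat.card SL3 = 168 := by
  have := S0242.result (F := ZMod 2) (q := 2) (by simp) 3 (by norm_num)
  rw [show 2 - 1 = 1 from rfl, one_mul] at this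
  rw [this]; decide

theorem card_all : Nat.card (AS fun _ _ => true) = 2 ^ 10 := by
  rw [card_AS]; congr 1

theorem card_N0 : Nat.card N0 = 2 ^ 20 * 9765 := by
  have : Nat.card N0 = Nat.card ((AS fun _ _ => true) × SL5) := Nat.card_congr
    { toFun := fun n => (⟨n.a, n.alt, fun _ _ c => by simp at c⟩, n.g)
      invFun := fun p => ⟨p.1.1, p.2, p.1.2.1⟩
      left_inv := fun _ => rfl
      right_inv := fun _ => rfl }
  rw [this, Nat.card_prod, card_all, card_SL5]; norm_num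

/-! ### The group `A''` -/

theorem mem_J0 {n : N0} : n ∈ J0 ↔ ∀ i j : Fin 5, j ≠ 4 ∨ i = 4 → n.g.1 i j = (1 : M5) i j := by
  have k : ∀ i j : Fin 5, decide ((i : ℕ) + 1 ≤ 4 ∧ (j : ℕ) + 1 = 5) = false ↔ j ≠ 4 ∨ i = 4 := by
    decide
  rw [J0, mem_Pat]
  simp only [k]
  exact ⟨fun h => h.2, fun h => ⟨fun _ _ c => by simp at c, h⟩⟩

theorem mem_A0 {n : N0} : n ∈ A0 ↔ n.g = 1 := by
  rw [A0, mem_Pat]
  exact ⟨fun h => Subtype.ext (Matrix.ext fun i j => h.2 i j rfl),
    fun h => ⟨fun _ _ c => by simp at c, fun i j _ => by rw [h]; rfl⟩⟩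

theorem mem_Z6 {n : N0} : n ∈ Z6 ↔ n.g = 1 ∧ ∀ i, n.a i 4 = 0 := by
  have k : ∀ i j : Fin 5, decide ((i : ℕ) + 1 ≤ 4 ∧ (j : ℕ) + 1 ≤ 4) = false ↔ i = 4 ∨ j = 4 := by
    decide
  rw [Z6, mem_Pat]
  simp only [k]
  refine ⟨fun h => ⟨Subtype.ext (Matrix.ext fun i j => h.2 i j trivial), fun i => h.1 i 4 (Or.inr rfl)⟩,
    fun h => ⟨?_, fun i j _ => by rw [h.1]; rfl⟩⟩
  rintro i j (rfl | rfl)
  · rw [n.alt.symm, h.2]
  · exact h.2 i

theorem one_row : ∀ (h : Fin 5) (v : Fin 5 → F), h = 4 ∨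
    (1 : M5) h 0 * v 0 + (1 : M5) h 1 * v 1 + (1 : M5) h 2 * v 2 + (1 : M5) h 3 * v 3 = v h := by
  decide +kernel

/-- the explicit description of `A''` -/
def B : Subgroup N0 := ofSubmonoid
  { carrier := {n | n ∈ J0 ∧ ∀ h : Fin 5, h ≠ 4 → n.a h 4 = n.g.1 h 4}
    one_mem' := ⟨one_mem _, fun h c => (one_apply_ne c).symm⟩
    mul_mem' := by
      rintro x y ⟨x1, x2⟩ ⟨y1, y2⟩
      refine ⟨mul_mem x1 y1, fun h c => ?_⟩
      have a := mem_J0.1 x1
      have b := mem_J0.1 y1 4 4 (Or.inr rfl)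
      have y4 := y.alt.2 4
      have r := fun j => a 4 j (Or.inr rfl)
      have s : ∀ v : Fin 5 → F, ∑ k, x.g.1 h k * v k = v h + x.g.1 h 4 * v 4 := fun v => by
        rw [Fin.sum_univ_five, a h 0 (by simp), a h 1 (by simp), a h 2 (by simp), a h 3 (by simp),
          (one_row h v).resolve_left c]
      rw [mul_a, mul_g, coe_mul', Matrix.add_apply, mul_apply, Finset.sum_eq_single 4, transpose_apply,
        r, mul_apply, mul_apply, s, s, y4, b, x2 h c, y2 h c]
      · simp [add_comm]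
      · intro l _ hl
        rw [transpose_apply, r, one_apply_ne hl.symm, mul_zero]
      · simp }

/-- the standard elements -/
def W (u : Fin 4 → F) : N0 :=
  (if u 0 = 1 then xx 1 5 * zz 1 5 else 1) * (if u 1 = 1 then xx 2 5 * zz 2 5 else 1) *
    ((if u 2 = 1 then xx 3 5 * zz 3 5 else 1) * (if u 3 = 1 then xx 4 5 * zz 4 5 else 1))

theorem W_g : ∀ u : Fin 4 → F, (W u).g.1 =
    !![1, 0, 0, 0, u 0; 0, 1, 0, 0, u 1; 0, 0, 1, 0, u 2; 0, 0, 0, 1, u 3; 0, 0, 0, 0, 1] := by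
  decide +kernel

theorem W_mem (u : Fin 4 → F) : W u ∈ App := by
  have k : ∀ h ∈ [1, 2, 3, 4], ∀ c : F, (if c = 1 then xx h 5 * zz h 5 else 1) ∈ App :=
    fun h hh c => by
      split_ifs
      · exact mem_sup_right (subset_closure ⟨h, hh, rfl⟩)
      · exact one_mem _
  exact mul_mem (mul_mem (k 1 (by simp) _) (k 2 (by simp) _))
    (mul_mem (k 3 (by simp) _) (k 4 (by simp) _))

theorem ex_W {n : N0} (h : n ∈ J0) : ∃ w ∈ App, w.g = n.g := by
  refine ⟨W fun i => n.g.1 i.castSucc 4, W_mem _, Subtype.ext ?_⟩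
  rw [W_g]
  have a := mem_J0.1 h
  ext i j
  have k : ∀ i j : Fin 5, decide (j ≠ 4 ∨ i = 4) = true → n.g.1 i j = (1 : M5) i j :=
    fun i j c => a i j (of_decide_eq_true c)
  symm
  fin_cases i <;> fin_cases j <;> first | exact k _ _ rfl | rfl

theorem App_le : App ≤ B := by
  refine sup_le (fun n hn => ?_) ((closure_le _).2 ?_)
  · obtain ⟨h1, h2⟩ := mem_Z6.1 hn
    exact ⟨mem_J0.2 fun i j _ => by rw [h1]; rfl, fun h c => by
      rw [h2, h1]; exact (one_apply_ne c).symm⟩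
  · have k : ∀ h ∈ [1, 2, 3, 4], xx h 5 * zz h 5 ∈ J0 := by unfold J0; decide +kernel
    have k' : ∀ h ∈ [1, 2, 3, 4], ∀ i : Fin 5, i = 4 ∨
        (xx h 5 * zz h 5).a i 4 = (xx h 5 * zz h 5).g.1 i 4 := by decide +kernel
    rintro _ ⟨h, hh, rfl⟩
    exact ⟨k h hh, fun i c => (k' h hh i).resolve_left c⟩

theorem inf_le_Z6 {n : N0} (h : n ∈ B) (g : n.g = 1) : n ∈ Z6 := by
  refine mem_Z6.2 ⟨g, fun i => ?_⟩
  by_cases c : i = 4
  · rw [c]; exact n.alt.2 4
  · rw [h.2 i c, g]; exact one_apply_ne c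

theorem App_eq : App = B := by
  refine le_antisymm App_le fun n hn => ?_
  obtain ⟨w, hw, e⟩ := ex_W hn.1
  have : n * w⁻¹ ∈ Z6 := inf_le_Z6 (mul_mem hn (inv_mem (App_le hw))) (by simp [e])
  have k : n * w⁻¹ * w ∈ App := mul_mem (mem_sup_left this) hw
  rwa [inv_mul_cancel_right] at k

/-- membership in `A''` -/
theorem mem_App {n : N0} : n ∈ App ↔ (∀ i j : Fin 5, j ≠ 4 ∨ i = 4 → n.g.1 i j = (1 : M5) i j) ∧
    ∀ h : Fin 5, h ≠ 4 → n.a h 4 = n.g.1 h 4 := by
  rw [App_eq, ← mem_J0]; rfl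

theorem A0_normal : A0.Normal := ⟨fun n hn g => mem_A0.2 (by simp [mem_A0.1 hn])⟩

theorem App_sup : App ⊔ A0 = J0 := by
  refine le_antisymm (sup_le (fun n hn => (App_le hn).1) fun n hn =>
    mem_J0.2 fun i j _ => by rw [mem_A0.1 hn]; rfl) fun n hn => ?_
  obtain ⟨w, hw, e⟩ := ex_W hn
  have : n * w⁻¹ ∈ A0 := mem_A0.2 (by simp [e])
  simpa using mul_mem (mem_sup_right this : n * w⁻¹ ∈ App ⊔ A0) (mem_sup_left hw)

theorem App_inf : App ⊓ A0 = Z6 :=
  le_antisymm (fun _ hn => inf_le_Z6 (App_le hn.1) (mem_A0.1 hn.2))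
    fun _ hn => ⟨mem_sup_left hn, mem_A0.2 (mem_Z6.1 hn).1⟩

theorem card_App : Nat.card App = 2 ^ 10 := by
  have := A0_normal
  have k := H3.card_sup_mul_card_inf_of_le_normalizer (H := App) (N := A0)
    (le_normalizer_of_normal)
  rw [App_sup, App_inf, card_J0, card_Z6, card_A0] at k
  omega

end Cfsg.Agent.H41.LpKit
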