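import Cfsg.Agent.H35.RfQ
import Cfsg.Agent.H3.Cores

/-! Project RF: the group `Q` in the code case. -/

set_option autoImplicit false

namespace Cfsg.Agent.H41.RfQg

open Cfsg Subgroup Cfsg.Agent.H42 Cfsg.Agent.H18.Rf Cfsg.Agent.H35.RF
open Cfsg.Agent.H48 (IsWord)
open scoped Pointwise symmDiff

universe u

theorem qg0 (kit : KitGStmt.{u}) (va : VaGStmt.{u}) (vb : VbGStmt.{u}) (vc : VcGStmt.{u})
    (vd : VdGStmt.{u}) (gb : GbStmt.{u}) (ge : GeStmt.{u}) (qd : QdStmt.{u}) (lc : LcStmt.{u})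
    (tvq : TvqStmt.{u}) (ci : CiStmt.{u}) (e45 : E45Stmt.{u}) (rk : RkGStmt.{u}) :
    Qg0Stmt.{u} := by
  intro G _ _ V ρ ψ st gol
  obtain ⟨a, ga⟩ := va G V ρ ψ st gol
  obtain ⟨Q, ql, sq⟩ := qd G V ρ ψ st gol
  have l := lc G V _ _ _ Q ⟨a, vb G V ρ ψ st gol, vc G V ρ ψ st gol, vd G V ρ ψ st gol⟩ ql sq
  have e := e45 G V _ _ _ Q a ga (gb G V ρ ψ st gol) (ge G V ρ ψ st gol) ql
  have cQ : Nat.card Q = 2 ^ 9 := by
    have k := H3.card_sup_mul_card_inf_of_le_normalizer (l.qm.trans inf_le_left)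
    rw [ql.inf, ql.sup, ga.cW, ga.cR, a.cV] at k
    omega
  refine ⟨Q, WG ψ, l, cQ, ga.cW, (kit G V ρ ψ st gol).2.1, fun n => ?_, fun y hy h => ?_,
    ci G V _ _ _ Q a ga (gb G V ρ ψ st gol) ql l (rk G V ρ ψ st gol),
    fun w hw nw => (e w hw nw).1, fun w hw nw => (e w hw nw).2⟩
  · rw [ql.sup, RG, coe_mem_pre, mem_fixS]; rfl
  · exact tvq G V _ Q _ a.el l y hy (by omega)

theorem qg_of (h : Qg0Stmt.{u}) : QgStmt.{u} := by
  intro G _ _ V ρ ψ st gol O hO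
  obtain ⟨g, rfl⟩ := exists_smul_oct0 hO
  have w : ∀ (k : M24) (c : Finset GolayPt), IsWord c → IsWord (k • c) := fun k c hc =>
    (msmul_mem_codeSets_iff k).2 hc
  let ρ' : NN V →* M24 := (MulAut.conj g⁻¹).toMonoidHom.comp ρ
  have hρ : ∀ n, ρ' n = g⁻¹ * ρ n * g := fun n => by simp [ρ']
  have st' : St V ρ' := ⟨st.el, st.card, st.cen, (MulAut.conj g⁻¹).surjective.comp st.sur,
    fun n => ((MulAut.conj g⁻¹).map_eq_one_iff (x := ρ n)).trans (st.ker n)⟩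
  have gol' : Gol V ρ' fun c => ψ (g • c) := by
    refine ⟨fun c d hc hd => ?_, fun c hc => gol.mem _ (w g c hc), fun v hv => ?_,
      fun c hc => ?_, fun n c hc => ?_⟩
    · rw [Finset.smul_finset_symmDiff, gol.add _ _ (w g c hc) (w g d hd)]
    · obtain ⟨c, hc, e⟩ := gol.sur v hv
      exact ⟨g⁻¹ • c, w _ c hc, by rw [smul_inv_smul, e]⟩
    · rw [gol.ker _ (w g c hc), Finset.smul_finset_eq_empty, Finset.smul_finset_eq_univ]
    · rw [gol.act n _ (w g c hc), hρ, mul_smul, mul_smul, smul_inv_smul]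
  obtain ⟨Q, W, l, k⟩ := h G V ρ' _ st' gol'
  refine ⟨Q, W, l, k.cQ, k.cW, fun c hc => ?_, fun n => ?_, k.tv, k.ci, k.e4, k.e5⟩
  · have := k.mw (g⁻¹ • c) (w _ c hc)
    rw [smul_inv_smul] at this
    rw [this]
    refine or_congr ?_ ?_
    · rw [Finset.disjoint_left, Finset.disjoint_left]
      exact ⟨fun h p hp hp' => h (Finset.smul_mem_smul_finset_iff g⁻¹ |>.2 hp)
          (Finset.inv_smul_mem_iff.2 hp'),
        fun h p hp hp' => h (Finset.mem_inv_smul_finset_iff.1 hp)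
          (Finset.smul_mem_smul_finset_iff g |>.2 hp')⟩
    · exact Finset.smul_finset_subset_iff.symm
  · rw [k.im n]
    refine ⟨fun h p hp => ?_, fun h p hp => ?_⟩
    · have := h (g⁻¹ • p) (Finset.inv_smul_mem_iff.2 hp)
      rwa [hρ, mul_smul, mul_smul, smul_inv_smul, smul_left_cancel_iff] at this
    · rw [hρ, mul_smul, mul_smul, h _ (Finset.smul_mem_smul_finset_iff g |>.2 hp), inv_smul_smul]

theorem qg (kit : KitGStmt.{u}) (va : VaGStmt.{u}) (vb : VbGStmt.{u}) (vc : VcGStmt.{u})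
    (vd : VdGStmt.{u}) (gb : GbStmt.{u}) (ge : GeStmt.{u}) (qd : QdStmt.{u}) (lc : LcStmt.{u})
    (tvq : TvqStmt.{u}) (ci : CiStmt.{u}) (e45 : E45Stmt.{u}) (rk : RkGStmt.{u}) :
    QgStmt.{u} := qg_of (qg0 kit va vb vc vd gb ge qd lc tvq ci e45 rk)

end Cfsg.Agent.H41.RfQg
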