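import Cfsg.Agent.H26.S6C3X
import Cfsg.Agent.H86.S6F11
import Cfsg.Agent.H47.S6F1
import Cfsg.Agent.H83.S6I2
import Cfsg.Agent.H2.S6R3
import Cfsg.Agent.H69.S6X1
import Cfsg.Agent.H76.S6ZQ
import Cfsg.Agent.H64.S6W
import Cfsg.Agent.H74.S6W
import Cfsg.Agent.H12.S6C3e
import Cfsg.Agent.H8.S6End
import Cfsg.Agent.H61.S6F0
import Cfsg.Agent.H72.SpI1
import Cfsg.Agent.H29.S6PQ
import Cfsg.Agent.H92.S6Mea
import Cfsg.Agent.H23.S6D2
import Cfsg.Agent.H81.S6II
import Cfsg.Agent.H55.S6Kd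
import Cfsg.Agent.H7.S6Gt
import Cfsg.Agent.H60.S6Base
import Cfsg.Agent.H51.S6ZZ

/-!
# An involution with centralizer `2 × Sp₆(2)` lies outside a subgroup of index two
-/

set_option autoImplicit false

namespace Cfsg.Agent.H41.S6

open Cfsg Subgroup
open Cfsg.Agent.H44 Cfsg.Agent.H55.Sp6 Cfsg.Agent.H2.L3E

universe u

theorem fin : All.{u} fun ι t => EndP ι t → ∀ M0, MV ι t Lam M0 →
    Cos t (centralizer (M0 : Set _)) → Fus ι t (normalizer (M0 : Set _)) → False := by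
  intro G _ _ ι t h he M hM hc hf
  refine he _ _ (centralizer_le_normalizer _) (fun x hx c hc m hm => ?_) ?_ (fun l => ⟨fun hl => ?_, fun hl => ?_⟩)
    (fun a ha m hm => h.MV_comm hM hm (hM.le ha)) (fun c hc ht => ?_) hc hf
  · have := hc _ ((mem_normalizer_iff''.mp hx m).mp hm)
    calc _ = x * (x⁻¹ * m * x * c) * x⁻¹ := by group
      _ = _ := by rw [this]; group
  · refine mem_normalizer_fintype fun m hm => ?_
    obtain ⟨γ, hγ, e⟩ := hM.tr m⁻¹ (inv_mem hm)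
    have : t * m * t⁻¹ = m * (ι γ)⁻¹ := by
      calc _ = m * (m⁻¹ * t * m⁻¹⁻¹) * t⁻¹ := by group
        _ = m * (t * ι γ * t⁻¹) := by rw [e]; group
        _ = _ := by rw [h.ct, mul_inv_cancel_right, ← map_inv, A_inv (Lam_le_A hγ)]
    exact this ▸ mul_mem hm (inv_mem (hM.le (mem_map_of_mem _ (Lam_le_A hγ))))
  · refine nor_A fun a ha => ?_
    obtain ⟨b, hb, e⟩ := hM.ker _ ((mem_normalizer_iff.mp hl _).mp (hM.le (mem_map_of_mem _ ha))) (by
      rw [← map_inv, ← map_mul, ← map_mul, h.ct])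
    rwa [← h.inj (e.trans (by rw [map_mul, map_mul, map_inv]) : ι b = ι (l * a * l⁻¹))]
  · exact mem_normalizer_fintype fun m hm => hM.nP l hl m hm
  · obtain ⟨a, ha, e | e⟩ := h.mem_E3.mp (h.cen_E3 ht fun a ha =>
      (hc _ (hM.le (mem_map_of_mem _ (Lam_le_A ha)))).symm)
    · exact ⟨a, ha, e.symm⟩
    · obtain ⟨m, hm, e'⟩ := hM.sur a12 a12_Lam
      have h1 := hc m hm
      have h2 := h.MV_comm hM hm (hM.le (mem_map_of_mem ι ha))
      rw [e, ← mul_assoc, mul_assoc t, ← h2, ← mul_assoc, mul_left_inj] at h1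
      rw [h1, mul_inv_cancel_right] at e'
      have : a12 = 1 := h.inj (by simpa using e'.symm)
      exact absurd (ac_inj (c := 8) (d := 0) (by norm_num) (by norm_num)
        (a12_ac.symm.trans (this.trans ac_zero.symm))) (by norm_num)

theorem no_sp6 : All.{u} fun _ _ => False := by
  intro G _ _ ι t h
  have k := H55.S6K.kf
  obtain ⟨hea, htr, hnb⟩ := H61.S6F0.f0 k G ι t h
  obtain ⟨hg, hx⟩ := H7.S6G.gt G ι t h
  obtain ⟨hnl, hc⟩ := H47.S6F.f1 k G ι t h htr hnb hg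
  have hb := H60.S6Base.base k G ι t h htr hnl hc
  have he := H8.S6.en k G ι t h hx
  have pq := H29.S6PQ.pq k G ι t h
  have m0 := H81.S6II.m0 k G ι t h
  have mea := H92.S6.mea k G ι t h hea hnl he
  have r3 := H2S6.r3 k G ι t h hb
  rcases hc with c | c | c
  · exact H83.S6I.i2 k G ι t h hnl c hb hg (H72.SpI1.i1 k G ι t h htr hnl c)
  · obtain ⟨s, al, hs⟩ := r3 ((c _ (Lam_le_A a12_Lam)).mpr a12_Lam)
    cases al
    · exact H81.S6II.iia k G ι t h c s hs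
    · obtain ⟨M, hM⟩ := m0 s hs (pq s hs).2
      exact mea Lam M (Or.inl ⟨rfl, c⟩) hM
  · obtain ⟨s, al, hs⟩ := r3 (c _ (Lam_le_A a12_Lam))
    obtain ⟨x, kk, hX⟩ := H69.S6.x1 k G ι t h hnl c hb
    have hk : kk = false := by
      cases al
      · exact H51.S6Z.z0 k G ι t h s x kk hs hX
      · exact H76.S6ZQ.zq k G ι t h (pq s hs).1 x kk hX
    subst hk
    obtain ⟨z, hz⟩ := H51.S6Z.zf k G ι t h x hX
    obtain ⟨w, η, β, hw⟩ := H64.S6W.ws k G ι t h z hz
    obtain ⟨e1, e2⟩ := H74.S6W.wc k G ι t h s al w η β hs (fun e => (pq s (e ▸ hs)).2) hw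
    subst e1
    cases β
    · cases η
      · exact mea A _ (Or.inr ⟨rfl, c⟩) (H81.S6II.w0 k G ι t h w hw)
      · exact H23.S6D.d2 k G ι t h w hw
    · obtain rfl := e2 rfl
      obtain ⟨hq, hd⟩ := pq s hs
      obtain ⟨M, hM⟩ := m0 s hs hd
      have h11 := H74.S6W.k11 k G ι t h w M hw hM
      exact fin G ι t h he M hM (H12.S6E.c3e k G ι t h hea w M hw hM h11
        (H26.S6X.c3x k G ι t h hea hnl c w M hw hM h11))
        (H86.SF.f11 k G ι t h hea hnl c hq w M hw hM h11)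

end Cfsg.Agent.H41.S6
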