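import Mathlib
import Cfsg.Agent.H2.L3N

/-!
# An involution with centralizer `2 × Sp₆(2)`: definitions and the statements of the pieces

Paper proofs: `stubs/notes/h41_sp6.md`.  Vectors are coded by numbers below 64
(`e₁ e₂ e₃ = 1 2 4`, `f₁ f₂ f₃ = 8 16 32`), `g u` is the transvection with centre `u`.
-/

set_option autoImplicit false

namespace Cfsg.Agent.H41.S6

open Cfsg Subgroup
open Cfsg.Agent.H44 Cfsg.Agent.H55.Sp6 Cfsg.Agent.H2.L3E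

universe u

/-- the involution of type `a₂` of the totally isotropic plane spanned by `u`, `v` -/
noncomputable def sg (u v : ℕ) : Sp := ev g [u, v, u ^^^ v]
noncomputable def a12 : Sp := sg 1 2
noncomputable def a13 : Sp := sg 1 4
noncomputable def a23 : Sp := sg 2 4
noncomputable def r12 : Sp := sg 1 16
noncomputable def r13 : Sp := sg 1 32
noncomputable def r23 : Sp := sg 2 32
noncomputable def r21 : Sp := sg 2 8
noncomputable def r32 : Sp := sg 4 16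
/-- order 3 on `⟨e₃, f₃⟩` : `4 ↦ 32 ↦ 36` -/
noncomputable def rho : Sp := ev g [4, 32]
/-- order 3 on `⟨e₂, f₂⟩` : `2 ↦ 16 ↦ 18` -/
noncomputable def rho2 : Sp := ev g [2, 16]
/-- swaps `e₂, e₃` and `f₂, f₃` -/
noncomputable def w23 : Sp := ev g [2, 32, 34, 4, 16, 20, 2, 32, 34]
/-- swaps `e₁, e₂` and `f₁, f₂` -/
noncomputable def w12 : Sp := ev g [1, 16, 17, 2, 8, 10, 1, 16, 17]

/-- the word of the element of `A` with bits `b₁ b₂ b₃ a₁₂ a₁₃ a₂₃` -/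
def aw (c : ℕ) : List ℕ :=
  (if c.testBit 0 then [1] else []) ++ ((if c.testBit 1 then [2] else []) ++
    ((if c.testBit 2 then [4] else []) ++ ((if c.testBit 3 then [1, 2, 3] else []) ++
      ((if c.testBit 4 then [1, 4, 5] else []) ++ (if c.testBit 5 then [2, 4, 6] else [])))))
noncomputable def ac (c : ℕ) : Sp := ev g (aw c)
/-- the code of `g u`, `u < 8` -/
def bc (u : ℕ) : ℕ := [0, 1, 2, 11, 4, 21, 38, 63].getD u 0
/-- the code of the conjugate of `ac c` under an element acting on `W` as `f` -/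
def cjc (f : ℕ → ℕ) (c : ℕ) : ℕ := ((aw c).map fun u => bc (f u)).foldr (· ^^^ ·) 0
/-- the representative of the class of `ac c` : `0`, `1` (b), `8` (a), `3` (c), `7` (d) -/
def rep (c : ℕ) : ℕ :=
  if c = 0 then 0 else if c % 8 = 0 then 8 else if c ∈ [1, 2, 11, 4, 21, 38, 63] then 1 else
    if (List.range 8).any fun u => (List.range 8).any fun v => c == bc u ^^^ bc v then 3 else 7

/-- pointwise stabilizer of `W = ⟨e₁, e₂, e₃⟩`, elementary of order 64 -/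
def A : Subgroup Sp := fixS fun x => if x < 8 then x else 8
/-- stabilizer of `W` -/
def P3 : Subgroup Sp := fixS fun x => if x < 8 then 0 else 1
/-- stabilizer of `e₁` -/
def P1 : Subgroup Sp := fixS fun x => if x = 1 then 0 else 1
def Lam : Subgroup Sp := closure {a12, a13, a23}

/-- independent codes below 8 -/
def Ind (u v w : ℕ) : Prop :=
  u < 8 ∧ v < 8 ∧ w < 8 ∧ u ≠ 0 ∧ v ≠ 0 ∧ v ≠ u ∧ w ≠ 0 ∧ w ≠ u ∧ w ≠ v ∧ w ≠ u ^^^ v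

structure KB : Prop where
  cls : ∀ s : Sp, s * s = 1 → ∃ l : Sp, l * s * l⁻¹ ∈ A
  ea : ∀ F : Subgroup Sp, (∀ x ∈ F, x * x = 1) →
    Nat.card F ≤ 64 ∧ (Nat.card F = 64 → ∃ l : Sp, ∀ x ∈ F, l * x * l⁻¹ ∈ A)

structure KC : Prop where
  altp : ∀ F : Subgroup Sp, (∀ x ∈ F, x * x = 1 ∧ Alt x) → Nat.card F ≤ 8
  t4 : ∀ p < 64, ∀ q < 64, ∀ r < 64, ∀ s < 64, [0, p, q, r, s].Nodup →
    [p, q, r, s].Pairwise (fun x y => bf x y = 0) → g p * g q * g r * g s ≠ 1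
  nea : ∀ I J : Subgroup Sp, J ≤ I → I ≤ T0 → (∀ x ∈ I, x * x = 1) →
    (∀ u ∈ T0, ∀ x ∈ I, u * x * u⁻¹ ∈ I) → (∀ u ∈ T0, ∀ x ∈ J, u * x * u⁻¹ ∈ J) →
    Nat.card I = 32 → Nat.card J = 16 →
    (I ≤ A ∧ ∀ l : Sp, (∀ x ∈ I, l * x = x * l) → l ∈ A) ∨
      ∃ v < 64, ∃ w < 64, bf 1 v = 0 ∧ bf 1 w = 0 ∧ bf v w = 1 ∧ sg 1 v ∈ J ∧ sg 1 w ∈ I

structure KD : Prop where
  rho : ∀ x : Sp, act x 1 = 1 → act x 2 = 2 → x ^ 3 = 1 → x ≠ 1 → g 4 * x * g 4 = x⁻¹ →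
    ∃ a ∈ A, x = a * rho * a⁻¹
  gen1 : ∀ l ∈ P1, l ∈ V0 ⊔ closure ({g 2, g 4, g 6, g 16, g 32} : Set Sp)
  n5 : ¬ 5 ∣ Nat.card P3
  n9 : ¬ 9 ∣ Nat.card P3

structure KF : Prop where
  b : KB
  c : KC
  d : KD

section G

variable {G : Type u} [Group G]

structure Hy (ι : Sp →* G) (t : G) : Prop where
  inj : Function.Injective ι
  tt : t * t = 1
  tn : ∀ l, ι l ≠ t
  ct : ∀ l, t * ι l = ι l * t
  cen : ∀ x, x * t = t * x → ∃ l, x = ι l ∨ x = t * ι l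
  no2 : ∀ M : Subgroup G, M.index = 2 → t ∈ M

variable (ι : Sp →* G) (t : G)

def E3 : Subgroup G := A.map ι ⊔ zpowers t
def E1 : Subgroup G := V0.map ι ⊔ zpowers t
def NE : Subgroup G := normalizer (E3 ι t : Set G)
def Nh : Subgroup G := NE ι t ⊓ centralizer (Lam.map ι : Set G)

def NL : Prop := ∀ l, ¬ IsConj t (ι l)
def CI : Prop := ∀ a ∈ A, IsConj t (t * ι a) ↔ ∃ u < 8, a = g u
def CII : Prop := ∀ a ∈ A, IsConj t (t * ι a) ↔ a ∈ Lam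
def CIII : Prop := ∀ a ∈ A, IsConj t (t * ι a)

def EaC : Prop := ∀ F : Subgroup G, (∀ x ∈ F, x * x = 1) → (∀ x ∈ F, x * t = t * x) →
  Nat.card F ≤ 128 ∧ (Nat.card F = 128 → ∃ l, ∀ x ∈ F, ι l * x * (ι l)⁻¹ ∈ E3 ι t)
def Tr : Prop := ∀ y ∈ E3 ι t, IsConj t y → ∃ n ∈ NE ι t, n * t * n⁻¹ = y
def NB : Prop := ¬ IsConj t (ι (ac 1)) ∧ ¬ IsConj t (ι (ac 8)) ∧ ¬ IsConj t (ι (ac 3))
def Base : Prop := ∀ a ∈ A, IsConj t (t * ι a) → ∃ n ∈ Nh ι t, n * t * n⁻¹ = t * ι a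
def I1c : Prop := ∀ d ∈ NE ι t, IsConj t d → d ∈ E3 ι t

/-- transfer into `⟨t⟩ K U` -/
def GenT : Prop := ∀ K : Subgroup G, (∀ k ∈ K, t * k * t⁻¹ ∈ K) →
  (∀ u ∈ T0, ∀ k ∈ K, ι u * k * (ι u)⁻¹ ∈ K) → (∀ k ∈ K, k * t = t * k → ∃ l, k = ι l) →
  (∀ y ∈ K ⊔ T0.map ι ⊔ zpowers t, IsConj t y → ∃ k ∈ K, y = k * t * k⁻¹) → False

/-- the extremal conjugates of `t` in `H` are conjugate in `H` -/
def Fus (H : Subgroup G) : Prop := ∀ x : G, x * t * x⁻¹ ∈ H → (∀ u ∈ T0, x * ι u * x⁻¹ ∈ H) →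
  ∃ h ∈ H, h * t * h⁻¹ = x * t * x⁻¹

/-- extremal transfer -/
def Gtx : Prop := ∀ H K : Subgroup G, K.relIndex H = 2 → t ∈ H → t ∉ K → (∀ u ∈ T0, ι u ∈ H) →
  Fus ι t H → False

def Cos (C : Subgroup G) : Prop :=
  ∀ c ∈ C, IsConj t (t * c) → ∃ c' ∈ C, c' * t * c'⁻¹ = t * c

def EndP : Prop := ∀ H C : Subgroup G, C ≤ H → (∀ h ∈ H, ∀ c ∈ C, h * c * h⁻¹ ∈ C) → t ∈ H →
  (∀ l, ι l ∈ H ↔ l ∈ P3) → A.map ι ≤ C → (∀ c ∈ C, c * t = t * c → c ∈ A.map ι) →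
  Cos t C → Fus ι t H → False

structure Sv (s : G) (al : Bool) : Prop where
  ss : s * s = 1
  cA : ∀ a ∈ A, s * ι a = ι a * s
  cr : s * ι rho = ι rho * s
  c3 : s * ι (r12 * r21) = ι (r12 * r21) * s
  tr : s * t * s⁻¹ = t * ι a12
  r : s * ι r12 * s⁻¹ = ι (if al then r12 * a12 else r12)

def Duad (s : G) : Prop := s * (ι w23 * s * (ι w23)⁻¹) = (ι w23 * s * (ι w23)⁻¹) * s

structure PP (q : G) (v : ℕ) : Prop where
  tr : q * t * q⁻¹ = t * ι (sg 1 v)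
  sv : ∀ w < 64, bf 1 w = 0 → q * ι (sg 1 w) * q⁻¹ = ι (sg 1 w * g 1 ^ bf v w)
  b : q * ι (g 1) = ι (g 1) * q
  sq : q * q = 1 ∨ q * q = ι (g 1)
  z : v < 2 → q ∈ V0.map ι

structure PQc : Prop where
  ex : ∀ v < 64, bf 1 v = 0 → ∃ q, PP ι t q v
  mul : ∀ u < 64, ∀ v < 64, bf 1 u = 0 → bf 1 v = 0 → ∀ q q', PP ι t q u → PP ι t q' v →
    PP ι t (q * q') (u ^^^ v)

structure MV (Γ : Subgroup Sp) (M : Subgroup G) : Prop where
  ea : ∀ m ∈ M, m * m = 1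
  le : A.map ι ≤ M
  nP : ∀ p ∈ P3, ∀ m ∈ M, ι p * m * (ι p)⁻¹ ∈ M
  tr : ∀ m ∈ M, ∃ γ ∈ Γ, m * t * m⁻¹ = t * ι γ
  sur : ∀ γ ∈ Γ, ∃ m ∈ M, m * t * m⁻¹ = t * ι γ
  ker : ∀ m ∈ M, m * t = t * m → m ∈ A.map ι

structure Xv (x : G) (k : Bool) : Prop where
  tr : x * t * x⁻¹ = t * ι (g 1)
  cV : ∀ v ∈ V0, x * ι v = ι v * x
  c23 : x * ι a23 = ι a23 * x
  b2 : x * ι (g 2) * x⁻¹ = ι (if k then g 2 * a12 else g 2)
  b3 : x * ι (g 4) * x⁻¹ = ι (if k then g 4 * a13 else g 4)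

structure Zv (z : G) : Prop where
  tr : z * t * z⁻¹ = t * ι (g 1)
  cP : ∀ l ∈ P1, z * ι l = ι l * z

def MW (w : ℕ → G) : Subgroup G := A.map ι ⊔ closure {x | ∃ u < 8, x = w u}

structure Wv (w : ℕ → G) (η β : Bool) : Prop where
  w0 : w 0 = 1
  eqv : ∀ l : Sp, ∀ v < 64, ι l * w v * (ι l)⁻¹ = w (act l v)
  tr : ∀ v < 64, w v * t * (w v)⁻¹ = t * ι (g v)
  sq : ∀ v < 64, w v * w v = ι (if η then g v else 1)
  cm : ∀ u < 64, ∀ v < 64, bf u v = 0 → w u * w v = ι (if β then sg u v else 1) * (w v * w u)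
  mtr : ∀ m ∈ MW ι w, (∀ a ∈ A, m * ι a = ι a * m) ∧ ∃ a ∈ A, m * t * m⁻¹ = t * ι a
  sur : ∀ a ∈ A, ∃ m ∈ MW ι w, m * t * m⁻¹ = t * ι a
  ker : ∀ m ∈ MW ι w, m * t = t * m → m ∈ A.map ι

structure K11 (w : ℕ → G) (M0 : Subgroup G) : Prop where
  le : M0 ≤ MW ι w
  cen : ∀ m ∈ MW ι w, ∀ n ∈ M0, m * n = n * m
  nf : ∀ m ∈ MW ι w, ∃ u < 8, ∃ n ∈ M0, m = w u * n
  nh : ∀ n : G, (∀ a ∈ A, n * ι a = ι a * n) → (∃ a ∈ A, n * t * n⁻¹ = t * ι a) →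
    n ∈ MW ι w ∨ t * n ∈ MW ι w
  om : ∀ m ∈ MW ι w, m * m = 1 → m ∈ M0
  inv : ∀ m ∈ MW ι w, t * m * (t * m) = 1 → ∃ u < 8, ∃ a ∈ A, m = w u * ι a
  zc : ∀ u < 8, ∀ a ∈ A, ∃ m ∈ MW ι w, m * (t * w u) * m⁻¹ = t * w u * ι a

def C3x (w : ℕ → G) (M0 : Subgroup G) : Prop := IsConj t (t * w 1) →
  ∃ x : G, (∀ m ∈ M0, x * m = m * x) ∧ (∀ m ∈ MW ι w, x * m * x⁻¹ ∈ MW ι w) ∧
    x * t * x⁻¹ = t * w 1

end G

/-- quantification over all the data -/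
def All (P : ∀ {G : Type u} [Group G], (Sp →* G) → G → Prop) : Prop :=
  ∀ (G : Type u) [Group G] [Finite G] (ι : Sp →* G) (t : G), Hy ι t → P ι t

def F0Stmt : Prop := KF → All.{u} fun ι t => EaC ι t ∧ Tr ι t ∧ NB ι t
def GTStmt : Prop := All.{u} fun ι t => GenT ι t ∧ Gtx ι t
def F1Stmt : Prop := KF → All.{u} fun ι t => Tr ι t → NB ι t → GenT ι t →
  NL ι t ∧ (CI ι t ∨ CII ι t ∨ CIII ι t)
def BaseStmt : Prop := KF → All.{u} fun ι t => Tr ι t → NL ι t →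
  CI ι t ∨ CII ι t ∨ CIII ι t → Base ι t
def I1Stmt : Prop := KF → All.{u} fun ι t => Tr ι t → NL ι t → CI ι t → I1c ι t
def I2Stmt : Prop := KF → All.{u} fun ι t => NL ι t → CI ι t → Base ι t → GenT ι t →
  I1c ι t → False
def R3Stmt : Prop := KF → All.{u} fun ι t => Base ι t → IsConj t (t * ι a12) →
  ∃ s al, Sv ι t s al
def PQStmt : Prop := KF → All.{u} fun ι t => ∀ s, Sv ι t s true → PQc ι t ∧ Duad ι s
def M0Stmt : Prop := KF → All.{u} fun ι t => ∀ s, Sv ι t s true → Duad ι s → ∃ M, MV ι t Lam M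
def IIaStmt : Prop := KF → All.{u} fun ι t => CII ι t → ∀ s, ¬ Sv ι t s false
def MeaStmt : Prop := KF → All.{u} fun ι t => EaC ι t → NL ι t → EndP ι t →
  ∀ Γ M, (Γ = Lam ∧ CII ι t) ∨ (Γ = A ∧ CIII ι t) → ¬ MV ι t Γ M
def X1Stmt : Prop := KF → All.{u} fun ι t => NL ι t → CIII ι t → Base ι t → ∃ x k, Xv ι t x k
def Z0Stmt : Prop := KF → All.{u} fun ι t => ∀ s x k, Sv ι t s false → Xv ι t x k → k = false
def ZFStmt : Prop := KF → All.{u} fun ι t => ∀ x, Xv ι t x false → ∃ z, Zv ι t z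
def ZQStmt : Prop := KF → All.{u} fun ι t => PQc ι t → ∀ x k, Xv ι t x k → k = false
def WStmt : Prop := KF → All.{u} fun ι t => ∀ z, Zv ι t z → ∃ w η β, Wv ι t w η β
def WCStmt : Prop := KF → All.{u} fun ι t => ∀ s al w η β, Sv ι t s al →
  (al = true → Duad ι s) → Wv ι t w η β → β = al ∧ (al = true → η = true)
def W0Stmt : Prop := KF → All.{u} fun ι t => ∀ w, Wv ι t w false false → MV ι t A (MW ι w)
def D2Stmt : Prop := KF → All.{u} fun ι t => ∀ w, ¬ Wv ι t w true false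
def K11Stmt : Prop := KF → All.{u} fun ι t => ∀ w M0, Wv ι t w true true → MV ι t Lam M0 →
  K11 ι t w M0
def C3XStmt : Prop := KF → All.{u} fun ι t => EaC ι t → NL ι t → CIII ι t → ∀ w M0,
  Wv ι t w true true → MV ι t Lam M0 → K11 ι t w M0 → C3x ι t w M0
def C3EStmt : Prop := KF → All.{u} fun ι t => EaC ι t → ∀ w M0,
  Wv ι t w true true → MV ι t Lam M0 → K11 ι t w M0 → C3x ι t w M0 →
  Cos t (centralizer (M0 : Set _))
def F11Stmt : Prop := KF → All.{u} fun ι t => EaC ι t → NL ι t → CIII ι t → PQc ι t → ∀ w M0,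
  Wv ι t w true true → MV ι t Lam M0 → K11 ι t w M0 → Fus ι t (normalizer (M0 : Set _))
def EndStmt : Prop := KF → All.{u} fun ι t => Gtx ι t → EndP ι t

end Cfsg.Agent.H41.S6
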