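import Mathlib
import Cfsg.Agent.H41.S6Defs

/-!
# Kit for `S6Defs`: the group `A`, codes, conjugation tables, membership lemmas
-/

set_option autoImplicit false
set_option maxRecDepth 100000
set_option synthInstance.maxSize 4096
set_option synthInstance.maxHeartbeats 200000
set_option linter.unnecessarySeqFocus false

namespace Cfsg.Agent.H41.S6

open Cfsg Subgroup
open Cfsg.Agent.H44 Cfsg.Agent.H55.Sp6 Cfsg.Agent.H2.L3E

universe u

/-! ### words -/

/-- equality of words, by evaluation -/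
theorem weq {l l' : List ℕ}
    (h : (l.all (· < 64) && (l'.all (· < 64) && cols (wd l) == cols (wd l'))) = true) :
    ev g l = ev g l' := by
  simp only [Bool.and_eq_true, List.all_eq_true, decide_eq_true_eq, beq_iff_eq] at h
  exact (ev_eq_iff h.1 h.2.1).mpr h.2.2

theorem wne {l l' : List ℕ}
    (h : (l.all (· < 64) && (l'.all (· < 64) && !(cols (wd l) == cols (wd l')))) = true) :
    ev g l ≠ ev g l' := by
  simp only [Bool.and_eq_true, List.all_eq_true, decide_eq_true_eq, Bool.not_eq_true',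
    beq_eq_false_iff_ne] at h
  exact fun e => h.2.2 ((ev_eq_iff h.1 h.2.1).mp e)

theorem ev_inv {l : List ℕ} (hl : ∀ a ∈ l, a < 64) : (ev g l)⁻¹ = ev g l.reverse := by
  induction l with
  | nil => simp [ev_nil]
  | cons a l ih =>
    rw [ev_cons, mul_inv_rev, ih fun b hb => hl b (List.mem_cons_of_mem _ hb), List.reverse_cons,
      ev_append, ev_single, g_inv (hl a List.mem_cons_self)]

theorem g_eq (u : ℕ) : g u = ev g [u] := (ev_single g u).symm

theorem conj_ev (s : Sp) (l : List ℕ) : s * ev g l * s⁻¹ = ev g (l.map (act s)) := by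
  induction l with
  | nil => simp [ev_nil]
  | cons a l ih =>
    rw [List.map_cons, ev_cons, ev_cons, ← ih, ← conj_g]; group

theorem conj_sg (s : Sp) {u v : ℕ} (hu : u < 64) (hv : v < 64) :
    s * sg u v * s⁻¹ = sg (act s u) (act s v) := by
  rw [sg, conj_ev, sg]; simp [act_xor s hu hv]

theorem act_wd {l : List ℕ} (hl : ∀ a ∈ l, a < 64) {u : ℕ} (hu : u < 64) :
    act (ev g l) u = wd l u := act_ev hl hu

/-! ### membership -/

theorem mem_A {s : Sp} : s ∈ A ↔ ∀ u < 8, act s u = u := by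
  constructor
  · intro h u hu
    have := h u (by omega)
    simp only [hu, if_true] at this
    split_ifs at this <;> omega
  · intro h x hx
    by_cases hx8 : x < 8
    · simp only [h x hx8]
    · have : ¬ act s x < 8 := fun h8 => by
        have := act_inj s hx (by omega : act s x < 64) (h _ h8).symm
        omega
      simp [hx8, this]

theorem ap_lt8 (s : Sp) {u : ℕ} (hu : u < 8) :
    act s u = ap (act s 1) (act s 2) (act s 4) 0 0 0 u := by
  rw [← act_ap s (by omega : u < 64)]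
  have h3 : u.testBit 3 = false := Nat.testBit_lt_two_pow (by omega)
  have h4 : u.testBit 4 = false := Nat.testBit_lt_two_pow (by omega)
  have h5 : u.testBit 5 = false := Nat.testBit_lt_two_pow (by omega)
  simp [ap, h3, h4, h5]

theorem mem_A3 {s : Sp} : s ∈ A ↔ act s 1 = 1 ∧ act s 2 = 2 ∧ act s 4 = 4 := by
  rw [mem_A]
  refine ⟨fun h => ⟨h 1 (by omega), h 2 (by omega), h 4 (by omega)⟩, fun ⟨h1, h2, h4⟩ u hu => ?_⟩
  rw [ap_lt8 s hu, h1, h2, h4]
  revert u; decide

theorem mem_P1 {s : Sp} : s ∈ P1 ↔ act s 1 = 1 := by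
  constructor
  · intro h
    have := h 1 (by omega)
    simp only [if_true] at this
    split_ifs at this <;> omega
  · intro h x hx
    by_cases hx1 : x = 1
    · simp [hx1, h]
    · have : act s x ≠ 1 := fun h1 => hx1 (act_inj s hx (by omega) (h1.trans h.symm))
      simp [hx1, this]

theorem P3_lt {s : Sp} (h : s ∈ P3) {u : ℕ} (hu : u < 8) : act s u < 8 := by
  have := h u (by omega)
  simp only [hu, if_true] at this
  split_ifs at this <;> omega

theorem ap_perm : ∀ c0 < 8, ∀ c1 < 8, ∀ c2 < 8,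
    (∀ u < 8, ap c0 c1 c2 0 0 0 u = 0 → u = 0) → ∀ v < 8, ∃ u < 8, ap c0 c1 c2 0 0 0 u = v := by
  decide +kernel

theorem ap_lt : ∀ c0 < 8, ∀ c1 < 8, ∀ c2 < 8, ∀ u < 8, ap c0 c1 c2 0 0 0 u < 8 := by
  decide +kernel

theorem mem_P3 {s : Sp} : s ∈ P3 ↔ act s 1 < 8 ∧ act s 2 < 8 ∧ act s 4 < 8 := by
  refine ⟨fun h => ⟨P3_lt h (by omega), P3_lt h (by omega), P3_lt h (by omega)⟩,
    fun ⟨h1, h2, h4⟩ x hx => ?_⟩
  by_cases hx8 : x < 8
  · have := ap_lt _ h1 _ h2 _ h4 x hx8
    rw [← ap_lt8 s hx8] at this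
    simp [hx8, this]
  · have : ¬ act s x < 8 := fun h8 => by
      obtain ⟨u, hu, e⟩ := ap_perm _ h1 _ h2 _ h4 (fun u hu e => by
        rw [← ap_lt8 s hu, ← act_zero s] at e
        exact act_inj s (by omega) (by omega) e) _ h8
      rw [← ap_lt8 s hu] at e
      have := act_inj s (by omega) hx e
      omega
    simp [hx8, this]

theorem A_le_P3 : A ≤ P3 := fun s hs => by
  obtain ⟨h1, h2, h4⟩ := mem_A3.mp hs
  exact mem_P3.mpr (by omega)

theorem A_le_T0 : A ≤ T0 := fun s hs x hx => by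
  by_cases hx8 : x < 8
  · rw [mem_A.mp hs x hx8]
  · have := hs x hx
    simp only [hx8, if_false] at this
    have h8 : ¬ act s x < 8 := fun h => by simp only [h, if_true] at this; omega
    simp only [lv]
    split_ifs <;> omega

theorem T0_le_P3 : T0 ≤ P3 := fun s hs => by
  have h := lv_facts
  have h2 := (h _ (act_lt s 2)).2.1 (hs 2 (by omega))
  have h4 := (h _ (act_lt s 4)).2.2 (hs 4 (by omega))
  refine mem_P3.mpr ⟨by rw [T0_one hs]; omega, ?_, ?_⟩
  · simp at h2; omega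
  · simp at h4; omega

theorem T0_le_P1 : T0 ≤ P1 := fun _ hs => mem_P1.mpr (T0_one hs)
theorem A_le_P1 : A ≤ P1 := A_le_T0.trans T0_le_P1
theorem V0_le_P1 : V0 ≤ P1 := V0_le_T0.trans T0_le_P1

theorem ev_mem_P3 {l : List ℕ}
    (h : (l.all (· < 64) && (wd l 1 < 8 && (wd l 2 < 8 && wd l 4 < 8))) = true) : ev g l ∈ P3 := by
  simp only [Bool.and_eq_true, List.all_eq_true, decide_eq_true_eq] at h
  rw [mem_P3, act_wd h.1 (by omega), act_wd h.1 (by omega), act_wd h.1 (by omega)]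
  exact h.2

theorem ev_mem_P1 {l : List ℕ} (h : (l.all (· < 64) && wd l 1 == 1) = true) : ev g l ∈ P1 := by
  simp only [Bool.and_eq_true, List.all_eq_true, decide_eq_true_eq, beq_iff_eq] at h
  rw [mem_P1, act_wd h.1 (by omega)]
  exact h.2

theorem ev_mem_T0 {l : List ℕ}
    (h : (l.all (· < 64) && (List.range 64).all fun x => lv (wd l x) == lv x) = true) :
    ev g l ∈ T0 := by
  simp only [Bool.and_eq_true, List.all_eq_true, decide_eq_true_eq, beq_iff_eq,
    List.mem_range] at h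
  exact ev_mem_fixS h.1 h.2

theorem r12_T0 : r12 ∈ T0 := ev_mem_T0 (by decide +kernel)
theorem r13_T0 : r13 ∈ T0 := ev_mem_T0 (by decide +kernel)
theorem r23_T0 : r23 ∈ T0 := ev_mem_T0 (by decide +kernel)
theorem r21_P3 : r21 ∈ P3 := ev_mem_P3 (by decide +kernel)
theorem r32_P3 : r32 ∈ P3 := ev_mem_P3 (by decide +kernel)
theorem w12_P3 : w12 ∈ P3 := ev_mem_P3 (by decide +kernel)
theorem w23_P3 : w23 ∈ P3 := ev_mem_P3 (by decide +kernel)
theorem r32_P1 : r32 ∈ P1 := ev_mem_P1 (by decide +kernel)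
theorem w23_P1 : w23 ∈ P1 := ev_mem_P1 (by decide +kernel)
theorem rho_P1 : rho ∈ P1 := ev_mem_P1 (by decide +kernel)
theorem rho2_P1 : rho2 ∈ P1 := ev_mem_P1 (by decide +kernel)

/-! ### the group `A` -/

theorem aw_lt8 : ∀ c < 64, ∀ a ∈ aw c, a < 8 := by decide +kernel
theorem aw_lt {c : ℕ} (hc : c < 64) : ∀ a ∈ aw c, a < 64 := fun a ha => by
  have := aw_lt8 c hc a ha; omega

theorem ac_step {c k : ℕ} {w : List ℕ} (hc : c < 64) (hk : k < 64) (hw : aw k = w) (p : Prop)
    [Decidable p] (key : ∀ c < 64, cols (wd (aw c ++ aw k)) = cols (wd (aw (c ^^^ k)))) :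
    c ^^^ (if p then k else 0) < 64 ∧
      ac c * ev g (if p then w else []) = ac (c ^^^ if p then k else 0) := by
  subst hw
  split_ifs
  · refine ⟨xor_lt hc hk, ?_⟩
    rw [ac, ac, ← ev_append]
    exact (ev_eq_iff (append_lt (aw_lt hc) (aw_lt hk)) (aw_lt (xor_lt hc hk))).mpr (key c hc)
  · simpa [ev_nil] using hc

theorem ac_mul {c d : ℕ} (hc : c < 64) (hd : d < 64) : ac c * ac d = ac (c ^^^ d) := by
  obtain ⟨h0, e0⟩ := ac_step (k := 1) (w := [1]) hc (by omega) rfl (d.testBit 0)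
    (by decide +kernel)
  obtain ⟨h1, e1⟩ := ac_step (k := 2) (w := [2]) h0 (by omega) rfl (d.testBit 1)
    (by decide +kernel)
  obtain ⟨h2, e2⟩ := ac_step (k := 4) (w := [4]) h1 (by omega) rfl (d.testBit 2)
    (by decide +kernel)
  obtain ⟨h3, e3⟩ := ac_step (k := 8) (w := [1, 2, 3]) h2 (by omega) rfl (d.testBit 3)
    (by decide +kernel)
  obtain ⟨h4, e4⟩ := ac_step (k := 16) (w := [1, 4, 5]) h3 (by omega) rfl (d.testBit 4)
    (by decide +kernel)
  obtain ⟨-, e5⟩ := ac_step (k := 32) (w := [2, 4, 6]) h4 (by omega) rfl (d.testBit 5)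
    (by decide +kernel)
  have key : ∀ d < 64, (if d.testBit 0 then 1 else 0) ^^^ ((if d.testBit 1 then 2 else 0) ^^^
      ((if d.testBit 2 then 4 else 0) ^^^ ((if d.testBit 3 then 8 else 0) ^^^
        ((if d.testBit 4 then 16 else 0) ^^^ (if d.testBit 5 then 32 else 0))))) = d := by
    decide +kernel
  conv_lhs => rw [show ac d = ev g (aw d) from rfl, aw]
  rw [ev_append, ev_append, ev_append, ev_append, ev_append, ← mul_assoc, ← mul_assoc,
    ← mul_assoc, ← mul_assoc, ← mul_assoc, e0, e1, e2, e3, e4, e5]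
  simp only [Nat.xor_assoc, key d hd]

theorem ac_zero : ac 0 = 1 := rfl

theorem ac_sq {c : ℕ} (hc : c < 64) : ac c * ac c = 1 := by
  rw [ac_mul hc hc, Nat.xor_self, ac_zero]

theorem ac_inv {c : ℕ} (hc : c < 64) : (ac c)⁻¹ = ac c := inv_eq_of_mul_eq_one_right (ac_sq hc)

theorem ac_inj {c d : ℕ} (hc : c < 64) (hd : d < 64) (h : ac c = ac d) : c = d := by
  have key : ∀ c < 64, ∀ d < 64, cols (wd (aw c)) = cols (wd (aw d)) → c = d := by
    decide +kernel
  exact key c hc d hd ((ev_eq_iff (aw_lt hc) (aw_lt hd)).mp h)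

theorem ac_mem {c : ℕ} (hc : c < 64) : ac c ∈ A := by
  have key : ∀ c < 64, wd (aw c) 1 = 1 ∧ wd (aw c) 2 = 2 ∧ wd (aw c) 4 = 4 := by decide +kernel
  rw [mem_A3, ac, act_wd (aw_lt hc) (by omega), act_wd (aw_lt hc) (by omega),
    act_wd (aw_lt hc) (by omega)]
  exact key c hc

theorem A_par {s : Sp} : s ∈ A ↔ ∃ c < 64, s = ac c := by
  refine ⟨fun hs => ?_, by rintro ⟨c, hc, rfl⟩; exact ac_mem hc⟩
  have key : chkT (fun f => !(f 2 == 2 && f 4 == 4) ||
      (List.range 64).any fun c => cols f == cols (wd (aw c))) = true := by decide +kernel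
  obtain ⟨f, hf, hQ⟩ := elimT key (A_le_T0 hs)
  obtain ⟨-, h2, h4⟩ := mem_A3.mp hs
  simp only [hf 2 (by omega), hf 4 (by omega), h2, h4, beq_self_eq_true, Bool.and_self,
    Bool.not_true, Bool.false_or, List.any_eq_true, List.mem_range, beq_iff_eq] at hQ
  obtain ⟨c, hc, e⟩ := hQ
  exact ⟨c, hc, ext6 (by rw [ac, cols_ev (aw_lt hc), ← e]; exact (cols_congr hf).symm)⟩

theorem A_sq {a : Sp} (ha : a ∈ A) : a * a = 1 := by
  obtain ⟨c, hc, rfl⟩ := A_par.mp ha; exact ac_sq hc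

theorem A_inv {a : Sp} (ha : a ∈ A) : a⁻¹ = a := inv_eq_of_mul_eq_one_right (A_sq ha)

theorem A_comm {a b : Sp} (ha : a ∈ A) (hb : b ∈ A) : a * b = b * a := by
  obtain ⟨c, hc, rfl⟩ := A_par.mp ha
  obtain ⟨d, hd, rfl⟩ := A_par.mp hb
  rw [ac_mul hc hd, ac_mul hd hc, Nat.xor_comm]

theorem card_A : Nat.card A = 64 := by
  have e : Function.Bijective (fun c : Fin 64 => (⟨ac c, ac_mem c.2⟩ : A)) := by
    constructor
    · intro c d h
      exact Fin.ext (ac_inj c.2 d.2 (congrArg Subtype.val h))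
    · rintro ⟨s, hs⟩
      obtain ⟨c, hc, rfl⟩ := A_par.mp hs
      exact ⟨⟨c, hc⟩, rfl⟩
  rw [← Nat.card_eq_of_bijective _ e]; simp

theorem bc_lt : ∀ u < 8, bc u < 64 := by decide

theorem g_bc {u : ℕ} (hu : u < 8) : g u = ac (bc u) := by
  have key : ∀ u < 8, cols (wd [u]) = cols (wd (aw (bc u))) := by decide +kernel
  rw [g_eq]
  exact (ev_eq_iff (by simp; omega) (aw_lt (bc_lt u hu))).mpr (key u hu)

theorem g_mem_A {u : ℕ} (hu : u < 8) : g u ∈ A := g_bc hu ▸ ac_mem (bc_lt u hu)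

theorem a12_ac : a12 = ac 8 := rfl
theorem a13_ac : a13 = ac 16 := rfl
theorem a23_ac : a23 = ac 32 := rfl
theorem g1_ac : g 1 = ac 1 := g_eq 1
theorem g2_ac : g 2 = ac 2 := g_eq 2
theorem g4_ac : g 4 = ac 4 := g_eq 4

theorem ev_lt8 {l : List ℕ} (hl : ∀ a ∈ l, a < 8) :
    (l.map bc).foldr (· ^^^ ·) 0 < 64 ∧ ev g l = ac ((l.map bc).foldr (· ^^^ ·) 0) := by
  induction l with
  | nil => exact ⟨by simp, rfl⟩
  | cons a l ih =>
    obtain ⟨h1, h2⟩ := ih fun b hb => hl b (List.mem_cons_of_mem _ hb)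
    have ha := hl a List.mem_cons_self
    rw [List.map_cons, List.foldr_cons, ev_cons, h2, g_bc ha, ac_mul (bc_lt a ha) h1]
    exact ⟨xor_lt (bc_lt a ha) h1, rfl⟩

/-- conjugation by an element of `P3` on the codes -/
theorem conj_ac {p : Sp} (hp : p ∈ P3) {f : ℕ → ℕ} (hf : ∀ u < 8, act p u = f u) {c : ℕ}
    (hc : c < 64) : cjc f c < 64 ∧ p * ac c * p⁻¹ = ac (cjc f c) := by
  have e : (aw c).map (act p) = (aw c).map f :=
    List.map_congr_left fun a ha => hf a (aw_lt8 c hc a ha)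
  have := ev_lt8 (l := (aw c).map f) (by
    intro a ha
    obtain ⟨b, hb, rfl⟩ := List.mem_map.mp ha
    have hb8 := aw_lt8 c hc b hb
    rw [← hf b hb8]; exact P3_lt hp hb8)
  rw [List.map_map] at this
  rw [ac, conj_ev, e]
  exact this

/-- conjugation by a word of `P3` on the codes -/
theorem conj_ac_wd {l : List ℕ}
    (h : (l.all (· < 64) && (wd l 1 < 8 && (wd l 2 < 8 && wd l 4 < 8))) = true) {c : ℕ}
    (hc : c < 64) : cjc (wd l) c < 64 ∧ ev g l * ac c * (ev g l)⁻¹ = ac (cjc (wd l) c) := by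
  have hp := ev_mem_P3 h
  simp only [Bool.and_eq_true, List.all_eq_true, decide_eq_true_eq] at h
  exact conj_ac hp (fun u hu => act_wd h.1 (by omega)) hc

/-- conjugation by any `p ∈ P3`, in terms of the images of `1, 2, 4` -/
theorem conj_ac_ap {p : Sp} (hp : p ∈ P3) {c : ℕ} (hc : c < 64) :
    cjc (ap (act p 1) (act p 2) (act p 4) 0 0 0) c < 64 ∧
      p * ac c * p⁻¹ = ac (cjc (ap (act p 1) (act p 2) (act p 4) 0 0 0) c) :=
  conj_ac hp (fun _ hu => ap_lt8 p hu) hc

theorem ind_of_P3 {p : Sp} (hp : p ∈ P3) : Ind (act p 1) (act p 2) (act p 4) := by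
  obtain ⟨h1, h2, h4⟩ := mem_P3.mp hp
  refine ⟨h1, h2, h4, act_ne_zero p (by omega) (by omega), act_ne_zero p (by omega) (by omega),
    fun e => ?_, act_ne_zero p (by omega) (by omega), fun e => ?_, fun e => ?_, fun e => ?_⟩
  · have := act_inj p (by omega) (by omega) e; omega
  · have := act_inj p (by omega) (by omega) e; omega
  · have := act_inj p (by omega) (by omega) e; omega
  · rw [← act_xor p (by omega) (by omega)] at e
    have := act_inj p (by omega) (by decide) e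
    exact absurd this (by decide)

theorem P3_conj_A {p a : Sp} (hp : p ∈ P3) (ha : a ∈ A) : p * a * p⁻¹ ∈ A := by
  obtain ⟨c, hc, rfl⟩ := A_par.mp ha
  obtain ⟨h1, h2⟩ := conj_ac_ap hp hc
  rw [h2]; exact ac_mem h1

theorem Lam_par {s : Sp} : s ∈ Lam ↔ ∃ c < 8, s = ac (8 * c) := by
  constructor
  · intro hs
    induction hs using closure_induction with
    | mem x hx =>
      rcases hx with rfl | rfl | rfl
      · exact ⟨1, by omega, rfl⟩
      · exact ⟨2, by omega, rfl⟩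
      · exact ⟨4, by omega, rfl⟩
    | one => exact ⟨0, by omega, rfl⟩
    | mul x y _ _ hx hy =>
      obtain ⟨c, hc, rfl⟩ := hx
      obtain ⟨d, hd, rfl⟩ := hy
      have key : ∀ c < 8, ∀ d < 8, c ^^^ d < 8 ∧ 8 * c ^^^ 8 * d = 8 * (c ^^^ d) := by decide
      exact ⟨c ^^^ d, (key c hc d hd).1, by
        rw [ac_mul (by omega) (by omega), (key c hc d hd).2]⟩
    | inv x _ hx =>
      obtain ⟨c, hc, rfl⟩ := hx
      exact ⟨c, hc, ac_inv (by omega)⟩
  · rintro ⟨c, hc, rfl⟩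
    have h1 : ac 8 ∈ Lam := subset_closure (by simp [a12_ac])
    have h2 : ac 16 ∈ Lam := subset_closure (by simp [a13_ac])
    have h4 : ac 32 ∈ Lam := subset_closure (by simp [a23_ac])
    have m : ∀ {c d : ℕ}, c < 64 → d < 64 → ac c ∈ Lam → ac d ∈ Lam → ac (c ^^^ d) ∈ Lam :=
      fun hc hd a b => ac_mul hc hd ▸ mul_mem a b
    interval_cases c
    · exact one_mem _
    · exact h1
    · exact h2
    · exact m (c := 8) (d := 16) (by omega) (by omega) h1 h2
    · exact h4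
    · exact m (c := 8) (d := 32) (by omega) (by omega) h1 h4
    · exact m (c := 16) (d := 32) (by omega) (by omega) h2 h4
    · have h3 : ac 24 ∈ Lam := m (c := 8) (d := 16) (by omega) (by omega) h1 h2
      exact m (c := 24) (d := 32) (by omega) (by omega) h3 h4

theorem ac_mem_Lam {c : ℕ} (hc : c < 64) : ac c ∈ Lam ↔ c % 8 = 0 := by
  rw [Lam_par]
  constructor
  · rintro ⟨d, hd, e⟩
    have := ac_inj hc (by omega) e
    omega
  · intro h
    exact ⟨c / 8, by omega, by congr 1; omega⟩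

theorem Lam_le_A : Lam ≤ A := fun s hs => by
  obtain ⟨c, hc, rfl⟩ := Lam_par.mp hs; exact ac_mem (by omega)

theorem a12_Lam : a12 ∈ Lam := subset_closure (by simp)
theorem a13_Lam : a13 ∈ Lam := subset_closure (by simp)
theorem a23_Lam : a23 ∈ Lam := subset_closure (by simp)

theorem card_Lam : Nat.card Lam = 8 := by
  have e : Function.Bijective (fun c : Fin 8 =>
      (⟨ac (8 * c), Lam_par.mpr ⟨c, c.2, rfl⟩⟩ : Lam)) := by
    constructor
    · intro c d h
      have := ac_inj (by omega) (by omega) (congrArg Subtype.val h)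
      exact Fin.ext (by omega)
    · rintro ⟨s, hs⟩
      obtain ⟨c, hc, rfl⟩ := Lam_par.mp hs
      exact ⟨⟨c, hc⟩, rfl⟩
  rw [← Nat.card_eq_of_bijective _ e]; simp

theorem alt_ac {c : ℕ} (hc : c < 64) : Alt (ac c) ↔ c % 8 = 0 := by
  have key : ∀ c < 64, altB (wd (aw c)) = true ↔ c % 8 = 0 := by decide +kernel
  rw [ac, alt_ev (aw_lt hc)]; exact key c hc

theorem mem_Lam_iff {s : Sp} : s ∈ Lam ↔ s ∈ A ∧ Alt s := by
  constructor
  · intro hs
    obtain ⟨c, hc, rfl⟩ := Lam_par.mp hs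
    exact ⟨ac_mem (by omega), (alt_ac (by omega)).mpr (by omega)⟩
  · rintro ⟨hs, ha⟩
    obtain ⟨c, hc, rfl⟩ := A_par.mp hs
    exact (ac_mem_Lam hc).mpr ((alt_ac hc).mp ha)

theorem P3_conj_Lam {p a : Sp} (hp : p ∈ P3) (ha : a ∈ Lam) : p * a * p⁻¹ ∈ Lam :=
  mem_Lam_iff.mpr ⟨P3_conj_A hp (Lam_le_A ha), (mem_Lam_iff.mp ha).2.conj p⟩

end Cfsg.Agent.H41.S6
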