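import Cfsg.Agent.H29.Dickson
import Cfsg.Agent.H29.Exceptional

/-!
# Reflection-closed sets of unit vectors of a ternary space with a degenerate pair
-/

set_option autoImplicit false

namespace Cfsg.Agent.H41.Sp

open H29
open scoped MatrixGroups

variable {F : Type*} [Field F]

/-- The involution attached to a unit vector. -/
noncomputable def iv (x y z : F) (h : x * x + 2 * (y * z) = 1) : PGL(2, F) :=
  pmk (mat x y (2 * z) (-x) fun e => one_ne_zero (by linear_combination -h - e))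

section
variable {x y z x' y' z' : F} {h : x * x + 2 * (y * z) = 1} {h' : x' * x' + 2 * (y' * z') = 1}

theorem iv_sq : iv x y z h * iv x y z h = 1 := by
  rw [iv, ← map_mul, pmk_eq_one_iff]
  simp only [GL2_mul_apply, mat_00, mat_01, mat_10, mat_11]
  exact ⟨by ring, by ring, by ring⟩

theorem iv_conj {κ : F} (hκ : κ = 2 * (x * x' + y * z' + z * y'))
    (h'' : (x' - κ * x) * (x' - κ * x) + 2 * ((y' - κ * y) * (z' - κ * z)) = 1) :
    iv x y z h * iv x' y' z' h' * (iv x y z h)⁻¹ = iv _ _ _ h'' := by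
  rw [mul_inv_eq_iff_eq_mul, iv, iv, iv, ← map_mul, ← map_mul, pmk_eq_pmk_iff]
  simp only [GL2_mul_apply, mat_00, mat_01, mat_10, mat_11]
  exact ⟨-1, by linear_combination -κ * h - hκ, by ring, by ring, by linear_combination -κ * h - hκ⟩

theorem iv_eq (h2 : (2 : F) ≠ 0) (e : iv x y z h = iv x' y' z' h') :
    (x = x' ∧ y = y' ∧ z = z') ∨ (x = -x' ∧ y = -y' ∧ z = -z') := by
  obtain ⟨c, h1, h3, h4, -⟩ := (pmk_eq_pmk_iff _ _).1 e
  simp only [mat_00, mat_01, mat_10] at h1 h3 h4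
  have h5 : z = c * z' := mul_left_cancel₀ h2 (by linear_combination h4)
  subst h1 h3 h5
  rcases mul_self_eq_one_iff.1 (show c * c = 1 by linear_combination h - c * c * h') with rfl | rfl <;> simp

theorem tri_iv : tri (iv x y z h * iv x' y' z' h') = (2 * (x * x' + y * z' + z * y')) ^ 2 := by
  rw [iv, iv, ← map_mul, tri_pmk, GL2_det_mul]
  simp only [GL2_mul_apply, mat_00, mat_01, mat_10, mat_11]
  rw [show (x * -x - y * (2 * z)) * (x' * -x' - y' * (2 * z')) = 1 by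
    linear_combination (x' * x' + 2 * (y' * z')) * h + h', div_one]
  ring

theorem iv_aff (l : F) : iv 1 0 0 (by simp) * iv 1 l 0 (by simp) = aff 1 l := by
  rw [iv, iv, aff, ← map_mul, pmk_eq_pmk_iff]
  exact ⟨1, by simp [GL2_mul_apply]⟩

theorem aff_iv (l : F) : aff 1 l * iv 1 0 0 (by simp) * (aff 1 l)⁻¹ = iv 1 (-(2 * l)) 0 (by simp) := by
  rw [mul_inv_eq_iff_eq_mul, iv, iv, aff, ← map_mul, ← map_mul, pmk_eq_pmk_iff]
  exact ⟨1, by simp [GL2_mul_apply]; ring⟩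

end

theorem A5_cent (x y : A5) (h : x * y = y * x) (h3 : x ^ 3 = 1) : x = 1 ∨ y = 1 ∨ y = x ∨ y * x = 1 := by
  revert x y
  decide +kernel

theorem tri3 [Finite F] (h2 : (2 : F) ≠ 0) (T : F → F → F → Prop) (hN : ∀ {x y z}, T x y z → x * x + 2 * (y * z) = 1)
    (hR : ∀ {x y z x' y' z'} κ, T x y z → T x' y' z' → κ = 2 * (x * x' + y * z' + z * y') →
      T (x' - κ * x) (y' - κ * y) (z' - κ * z)) (h0 : T 1 0 0) (h1 : T 1 1 0) {x y z : F} (hw : T x y z) (hz : z ≠ 0) :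
    ((∀ l, T 1 l 0 → l ^ 3 = l) ∧ x ^ 9 = x ∧ (x + z) ^ 9 = x + z) ∨
      ∃ k : Subfield F, (∀ l, T 1 l 0 ↔ l ∈ k) ∧ x ^ 2 ∈ k ∧ (x + z) ^ 2 ∈ k := by
  obtain ⟨p, hp, hc, -⟩ := exists_char_card F
  have := finite_PGL2 (F := F)
  let S : Set PGL(2, F) := {g | ∃ x y z, ∃ h : T x y z, g = iv x y z (hN h)}
  have m : ∀ {x y z} (h : T x y z), iv x y z (hN h) ∈ Subgroup.closure S := fun h => Subgroup.subset_closure ⟨_, _, _, h, rfl⟩
  have hS : Subgroup.closure S ≤ Subgroup.normalizer S := (Subgroup.closure_le _).2 (by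
    rintro _ ⟨a, b, c, h, rfl⟩
    refine Subgroup.mem_normalizer_fintype ?_
    rintro _ ⟨a', b', c', h', rfl⟩
    exact ⟨_, _, _, hR _ h h' rfl, iv_conj rfl _⟩)
  have ma : ∀ {l}, T 1 l 0 → aff 1 l ∈ Subgroup.closure S := fun h => iv_aff (F := F) _ ▸ mul_mem (m h0) (m h)
  have u : ∀ l : F, aff 1 l ∈ uni (inf : P1 F) := fun l => mem_uni_inf.2 ⟨l, rfl⟩
  have n1 : aff (1 : Fˣ) 1 ≠ 1 := aff_one_ne_one one_ne_zero
  have t1 : tri (iv x y z (hN hw) * iv 1 0 0 (hN h0)) = (2 * x) ^ 2 := tri_iv.trans (by ring)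
  have t2 : tri (iv x y z (hN hw) * iv 1 1 0 (hN h1)) = (2 * (x + z)) ^ 2 := tri_iv.trans (by ring)
  rcases dickson p (Subgroup.closure S) with ⟨a, ha⟩ | ⟨A, D, hT, -, hD⟩ | ⟨h3, -⟩ | ⟨rfl, ⟨e⟩⟩ | ⟨c, k, -, h⟩
  · obtain rfl := ((mem_uni.1 (u 1)).2.resolve_left n1) a (ha (ma h1))
    exact absurd ((pmk_smul_inf_eq_inf _).1 (ha (m hw))) (mul_ne_zero h2 hz)
  · exact absurd (u 1) (hT.not_mem_uni (hT.mem_T_of_mul_self_ne (hD (ma h1)) (by
      rw [aff_mul, Ne, aff_eq_one]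
      exact fun e => h2 (by simpa [one_add_one_eq_two] using e.2))) n1 _)
  · exact absurd (orderOf_eq_prime (pow_char_eq_one_of_mem_uni p (u 1)) n1 ▸ (Subgroup.closure S).orderOf_dvd_natCard (ma h1)) h3
  · have h3 : (3 : F) = 0 := by exact_mod_cast CharP.cast_eq_zero F 3
    have key : ∀ g ∈ Subgroup.closure S, ∀ β : F, tri g = (2 * β) ^ 2 → β ^ 9 = β := fun g hg β hβ => by
      have h4 : tri g = β ^ 2 := by linear_combination hβ + β ^ 2 * h3
      have h5 : β ^ 2 = 1 → β ^ 9 = β := fun e => by rw [show β ^ 9 = (β ^ 2) ^ 4 * β by ring, e]; simp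
      by_cases g1 : g = 1
      · exact h5 (by rw [g1, tri_one] at h4; linear_combination h3 - h4)
      have h6 : ∀ n : ℕ, e ⟨g, hg⟩ ^ n = 1 → g ^ n = 1 := fun n hn =>
        congrArg Subtype.val (e.map_eq_one_iff.1 ((map_pow e _ n).trans hn))
      rcases A5_pow (e ⟨g, hg⟩) with h | h | h
      · rw [(pow_eq_zero_iff two_ne_zero).1 (h4.symm.trans ((sq_eq_one_iff_tri g1).1 (h6 _ h)))]; simp
      · exact h5 (h4 ▸ (cube_eq_one_iff_tri g1).1 (h6 _ h))
      · have := h4 ▸ (pow_five_eq_one_iff_tri g1).1 (h6 _ h)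
        linear_combination (β ^ 5 - β) * this + (β ^ 7 - β ^ 3) * h3
    refine .inl ⟨fun l hl => ?_, key _ (mul_mem (m hw) (m h0)) _ t1, key _ (mul_mem (m hw) (m h1)) _ t2⟩
    have := A5_cent (e ⟨_, ma h1⟩) (e ⟨_, ma hl⟩) (by
      rw [← map_mul, ← map_mul]; exact congrArg e (Subtype.ext (uni_comm (u _) (u _)))) (by
      rw [← map_pow, e.map_eq_one_iff]; exact Subtype.ext (pow_char_eq_one_of_mem_uni 3 (u 1)))
    simp only [← map_mul, e.map_eq_one_iff, e.apply_eq_iff_eq, Subtype.ext_iff, Subgroup.coe_mul, Subgroup.coe_one, aff_mul,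
      aff_eq_one, aff_inj, true_and, one_ne_zero, false_or, mul_one, Units.val_one] at this
    rcases this with rfl | rfl | h
    · simp
    · simp
    · rw [eq_neg_of_add_eq_zero_right h]; ring
  · have l1 : ∀ g ∈ Subgroup.closure S, c * g * c⁻¹ ∈ PGLsub k.subtype := fun g hg =>
      h.elim (fun h => h.le) (fun h => h.le.trans (PSLsub_le_PGLsub _)) (conj_mem_map_conj_iff.2 hg)
    have l2 : ∀ g, c * g * c⁻¹ ∈ PSLsub k.subtype → g ∈ Subgroup.closure S := fun g hg =>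
      conj_mem_map_conj_iff.1 (h.elim (fun h => (PSLsub_le_PGLsub _).trans h.ge) (fun h => h.ge) hg)
    obtain ⟨g1, e1⟩ := l1 _ (ma h1)
    obtain ⟨g2, e2⟩ := l1 _ (m h0)
    obtain ⟨a, ha⟩ := rational_of_mem_uni (f := k.subtype) (x := c • inf) (g := g1)
      (by rintro rfl; exact n1 (conj_eq_one_iff.1 (e1.symm.trans (map_one _)))) (e1 ▸ conj_mem_uni_iff.2 (u 1))
    obtain ⟨b, hb⟩ := mem_range_P1map_of_fix k.subtype (g := g2) (z := a) (x := c • pt 0)
      (by rintro rfl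
          have : (1 : F) = -1 := ((pmk_eq_one_iff _).1 (conj_eq_one_iff.1 (e2.symm.trans (map_one _)))).2.2
          exact h2 (by linear_combination this))
      ((pmap_smul_P1map_eq_iff k.subtype _ _ _).1 (by
        rw [ha, e2, conj_smul_eq_iff]; exact (pmk_smul_inf_eq_inf _).2 (by simp)))
      (by rw [e2, conj_smul_eq_iff]; exact (pmk_smul_pt_eq_pt _ _ _).2 (by simp))
    obtain ⟨c', rfl⟩ := mem_range_pmap_of_three k.subtype (g := c) ⟨a, ha⟩ ⟨b, hb⟩ ⟨g1 • b, by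
      rw [← pmap_smul_P1map, hb, e1, conj_smul_eq_iff, aff_smul_pt]; simp⟩
    have l3 : ∀ g ∈ Subgroup.closure S, g ∈ PGLsub k.subtype := fun g hg => by
      simpa [mul_assoc] using mul_mem (mul_mem (inv_mem (MonoidHom.mem_range.2 ⟨c', rfl⟩)) (l1 g hg))
        (MonoidHom.mem_range.2 ⟨c', rfl⟩)
    have k2 : (2 : F) ∈ k := by exact_mod_cast natCast_mem k 2
    have l4 : ∀ g ∈ Subgroup.closure S, ∀ β : F, tri g = (2 * β) ^ 2 → β ^ 2 ∈ k := fun g hg β hβ => by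
      obtain ⟨t, ht⟩ := tri_mem_of_mem_PGLsub (l3 g hg)
      rw [show β ^ 2 = t / 2 ^ 2 by rw [show (t : F) = _ from ht.trans hβ]; field_simp]
      exact div_mem t.2 (pow_mem k2 2)
    refine .inr ⟨k, fun l => ⟨fun hl => ?_, fun hl => ?_⟩, l4 _ (mul_mem (m hw) (m h0)) _ t1, l4 _ (mul_mem (m hw) (m h1)) _ t2⟩
    · obtain ⟨g, hg⟩ := l3 _ (ma hl)
      have := pmap_smul_P1map k.subtype g (pt 0)
      rw [hg, P1map_pt, aff_smul_pt] at this
      rcases P1_cases (g • pt (0 : k)) with e | ⟨t, e⟩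
      · exact absurd (this.trans (by rw [e, P1map_inf])) (pt_ne_inf _)
      · rw [e, P1map_pt, pt_inj] at this
        exact (by simpa using this : l = t) ▸ t.2
    · have l5 := l2 (aff 1 (-(l / 2))) (by
        obtain ⟨g, g1, g2⟩ := uni_inf_mem_PSLsub k.subtype ⟨_, neg_mem (div_mem hl k2)⟩
        exact ⟨_, Lsub_normal.conj_mem g g1 c', by rw [map_mul, map_mul, map_inv, g2]; rfl⟩)
      obtain ⟨a, b, c, h, e⟩ := (hS l5 _).1 ⟨_, _, _, h0, rfl⟩
      have l6 : -(2 * -(l / 2)) = l := by field_simp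
      rcases iv_eq h2 (e.symm.trans (aff_iv _)) with ⟨rfl, rfl, rfl⟩ | ⟨rfl, rfl, rfl⟩
      · exact l6 ▸ h
      · have := hR 2 h h (by simp)
        rw [l6] at this
        convert this using 1 <;> ring

end Cfsg.Agent.H41.Sp
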